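import Mathlib
import Cfsg.Agent.Lib.ClassMax.Transv
import Cfsg.Agent.Lib.Classical.SL

/-! Transvections as elements of the special linear group, for the minimal index theorem. -/

set_option autoImplicit false
set_option linter.unusedSectionVars false
set_option linter.unusedSimpArgs false
set_option linter.unusedVariables false

namespace Cfsg.Agent.Lib.MinIndex

open Matrix
open Cfsg.Agent.Lib.ClassMax (tvMat tvMat_mulVec det_tvMat)

variable {ι : Type} [Fintype ι] [DecidableEq ι] {F : Type*} [Field F]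

theorem sl_ext {g h : SpecialLinearGroup ι F} (e : (g : Matrix ι ι F) = (h : Matrix ι ι F)) : g = h :=
  Subtype.ext e

/-- The transvection `v ↦ v + (φ · v) x`, total in its arguments. -/
noncomputable def tv (x φ : ι → F) : SpecialLinearGroup ι F :=
  haveI := Classical.propDecidable (φ ⬝ᵥ x = 0)
  if h : φ ⬝ᵥ x = 0 then ⟨tvMat x φ, det_tvMat x φ h⟩ else 1

theorem tv_coe {x φ : ι → F} (h : φ ⬝ᵥ x = 0) :
    ((tv x φ : SpecialLinearGroup ι F) : Matrix ι ι F) = 1 + vecMulVec x φ := by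
  simp [tv, h, tvMat]

theorem tv_of_not {x φ : ι → F} (h : ¬ φ ⬝ᵥ x = 0) : tv x φ = 1 := dif_neg h

theorem tv_mulVec {x φ : ι → F} (h : φ ⬝ᵥ x = 0) (v : ι → F) :
    ((tv x φ : SpecialLinearGroup ι F) : Matrix ι ι F) *ᵥ v = v + (φ ⬝ᵥ v) • x := by
  rw [tv_coe h]
  exact tvMat_mulVec x φ v

theorem tv_ext {x φ y χ : ι → F} (h : φ ⬝ᵥ x = 0) (h' : χ ⬝ᵥ y = 0)
    (he : vecMulVec x φ = vecMulVec y χ) : tv x φ = tv y χ := by
  apply sl_ext
  rw [tv_coe h, tv_coe h', he]

theorem tv_zero_right (x : ι → F) : tv x (0 : ι → F) = 1 := by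
  apply sl_ext
  rw [tv_coe (by simp)]
  simp

theorem tv_zero_left (φ : ι → F) : tv (0 : ι → F) φ = 1 := by
  apply sl_ext
  rw [tv_coe (by simp)]
  simp

theorem tv_add {x φ χ : ι → F} (h : φ ⬝ᵥ x = 0) (h' : χ ⬝ᵥ x = 0) :
    tv x (φ + χ) = tv x φ * tv x χ := by
  apply sl_ext
  simp only [Matrix.SpecialLinearGroup.coe_mul]
  rw [tv_coe (by rw [add_dotProduct, h, h', add_zero]), tv_coe h, tv_coe h']
  have := Cfsg.Agent.Lib.ClassMax.tvMat_mul x φ χ h
  simp only [tvMat] at this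
  exact this.symm

theorem tv_neg {x φ : ι → F} (h : φ ⬝ᵥ x = 0) : tv x (-φ) = (tv x φ)⁻¹ := by
  rw [eq_inv_iff_mul_eq_one, ← tv_add (by rw [neg_dotProduct, h, neg_zero]) h, neg_add_cancel,
    tv_zero_right]

theorem tv_smul_left (c : F) (x φ : ι → F) : tv (c • x) φ = tv x (c • φ) := by
  by_cases h : φ ⬝ᵥ x = 0
  · apply tv_ext
    · rw [dotProduct_smul, h, smul_zero]
    · rw [smul_dotProduct, h, smul_zero]
    · ext i j
      simp [vecMulVec_apply, mul_assoc, mul_left_comm]
  · by_cases hc : c = 0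
    · subst hc
      simp [tv_zero_left, tv_zero_right]
    · have h1 : ¬ φ ⬝ᵥ (c • x) = 0 := by
        rw [dotProduct_smul, smul_eq_mul]
        exact mul_ne_zero hc h
      have h2 : ¬ (c • φ) ⬝ᵥ x = 0 := by
        rw [smul_dotProduct, smul_eq_mul]
        exact mul_ne_zero hc h
      rw [tv_of_not h1, tv_of_not h2]

theorem coe_inv_mul_coe (g : SpecialLinearGroup ι F) :
    ((g⁻¹ : SpecialLinearGroup ι F) : Matrix ι ι F) * (g : Matrix ι ι F) = 1 := by
  have h := congrArg (fun g : SpecialLinearGroup ι F => (g : Matrix ι ι F)) (inv_mul_cancel g)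
  simpa only [Matrix.SpecialLinearGroup.coe_mul, Matrix.SpecialLinearGroup.coe_one] using h

theorem coe_mul_coe_inv (g : SpecialLinearGroup ι F) :
    (g : Matrix ι ι F) * ((g⁻¹ : SpecialLinearGroup ι F) : Matrix ι ι F) = 1 := by
  have h := congrArg (fun g : SpecialLinearGroup ι F => (g : Matrix ι ι F)) (mul_inv_cancel g)
  simpa only [Matrix.SpecialLinearGroup.coe_mul, Matrix.SpecialLinearGroup.coe_one] using h

/-- `g v` as a vector. -/
abbrev act (g : SpecialLinearGroup ι F) (v : ι → F) : ι → F := (g : Matrix ι ι F) *ᵥ v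

/-- The contragredient action on functionals: `g · φ = φ ∘ g⁻¹`. -/
abbrev cact (g : SpecialLinearGroup ι F) (φ : ι → F) : ι → F :=
  φ ᵥ* ((g⁻¹ : SpecialLinearGroup ι F) : Matrix ι ι F)

theorem cact_dot_act (g : SpecialLinearGroup ι F) (φ v : ι → F) : cact g φ ⬝ᵥ act g v = φ ⬝ᵥ v := by
  simp only [cact, act]
  rw [dotProduct_mulVec, vecMul_vecMul, coe_inv_mul_coe, vecMul_one]

theorem act_inv_act (g : SpecialLinearGroup ι F) (v : ι → F) : act g⁻¹ (act g v) = v := by
  simp only [act]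
  rw [mulVec_mulVec, coe_inv_mul_coe, one_mulVec]

theorem act_act_inv (g : SpecialLinearGroup ι F) (v : ι → F) : act g (act g⁻¹ v) = v := by
  simp only [act]
  rw [mulVec_mulVec, coe_mul_coe_inv, one_mulVec]

theorem cact_inv_cact (g : SpecialLinearGroup ι F) (φ : ι → F) : cact g⁻¹ (cact g φ) = φ := by
  simp only [cact, inv_inv]
  rw [vecMul_vecMul, coe_inv_mul_coe, vecMul_one]

theorem cact_cact_inv (g : SpecialLinearGroup ι F) (φ : ι → F) : cact g (cact g⁻¹ φ) = φ := by
  simp only [cact, inv_inv]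
  rw [vecMul_vecMul, coe_mul_coe_inv, vecMul_one]

theorem act_add (g : SpecialLinearGroup ι F) (v w : ι → F) : act g (v + w) = act g v + act g w :=
  mulVec_add _ _ _

theorem act_smul (g : SpecialLinearGroup ι F) (c : F) (v : ι → F) : act g (c • v) = c • act g v :=
  mulVec_smul _ _ _

theorem act_mul (g g' : SpecialLinearGroup ι F) (v : ι → F) : act (g * g') v = act g (act g' v) := by
  simp only [act, Matrix.SpecialLinearGroup.coe_mul]
  rw [mulVec_mulVec]

theorem act_one (v : ι → F) : act (1 : SpecialLinearGroup ι F) v = v := by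
  simp [act]

theorem act_ne_zero (g : SpecialLinearGroup ι F) {v : ι → F} (hv : v ≠ 0) : act g v ≠ 0 := by
  intro h
  apply hv
  rw [← act_inv_act g v, h]
  simp [act]

/-- Conjugation of a transvection. -/
theorem conj_tv (g : SpecialLinearGroup ι F) {x φ : ι → F} (h : φ ⬝ᵥ x = 0) :
    g * tv x φ * g⁻¹ = tv (act g x) (cact g φ) := by
  have h' : cact g φ ⬝ᵥ act g x = 0 := by rw [cact_dot_act, h]
  apply sl_ext
  simp only [Matrix.SpecialLinearGroup.coe_mul]
  rw [tv_coe h, tv_coe h', mul_add, add_mul,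
    mul_one, coe_mul_coe_inv]
  congr 1
  simp only [act, cact]
  rw [mul_vecMulVec, vecMulVec_mul]

/-- A subgroup containing all transvections is everything. -/
theorem eq_top_of_tv (H : Subgroup (SpecialLinearGroup ι F))
    (hH : ∀ x φ : ι → F, φ ⬝ᵥ x = 0 → tv x φ ∈ H) : H = ⊤ := by
  rw [eq_top_iff]
  intro g _
  refine Cfsg.Agent.Lib.Classical.sl_transvection_induction (· ∈ H) ?_ H.one_mem
    (fun A B hA hB => H.mul_mem hA hB) g
  intro i j hij c
  have h0 : (Pi.single j 1 : ι → F) ⬝ᵥ (Pi.single i c : ι → F) = 0 := by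
    simp [hij]
  have := hH _ _ h0
  convert this using 1
  apply sl_ext
  rw [tv_coe h0]
  simp only [Matrix.SpecialLinearGroup.transvection_coe]
  congr 1
  ext k l
  simp [vecMulVec_apply, Matrix.single_apply, Pi.single_apply]
  grind

/-- The commutator of two transvections. -/
theorem commutator_tv {a b φ χ : ι → F} (h1 : χ ⬝ᵥ a = 0) (h2 : φ ⬝ᵥ b = 0) (h3 : φ ⬝ᵥ a = 0)
    (h4 : χ ⬝ᵥ b = 1) : tv a χ * tv b φ * (tv a χ)⁻¹ * (tv b φ)⁻¹ = tv a φ := by
  have e1 : tv a χ * tv b φ * (tv a χ)⁻¹ = tv (act (tv a χ) b) (cact (tv a χ) φ) := conj_tv _ h2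
  have e2 : act (tv a χ) b = a + b := by
    simp only [act]
    rw [tv_mulVec h1, h4, one_smul, add_comm]
  have e3 : cact (tv a χ) φ = φ := by
    simp only [cact]
    rw [← tv_neg h1, tv_coe (by rw [neg_dotProduct, h1, neg_zero]), vecMul_add, vecMul_one, vecMul_vecMulVec, h3]
    simp
  rw [e1, e2, e3, ← tv_neg h2]
  have e4 : (-φ) ⬝ᵥ b = 0 := by rw [neg_dotProduct, h2, neg_zero]
  apply sl_ext
  simp only [Matrix.SpecialLinearGroup.coe_mul]
  rw [tv_coe (by rw [dotProduct_add, h3, h2, add_zero]), tv_coe e4, tv_coe h3]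
  rw [add_mul, one_mul, mul_add, mul_one, vecMulVec_mul_vecMulVec]
  simp only [e4, zero_mul, smul_zero, neg_dotProduct, dotProduct_add, h3, h2, add_zero, neg_zero]
  ext i j
  simp [vecMulVec_apply, Matrix.add_apply, Matrix.one_apply, add_mul]
  ring

/-- The inverse-transpose automorphism. -/
def itM (g : SpecialLinearGroup ι F) : SpecialLinearGroup ι F :=
  ⟨((g⁻¹ : SpecialLinearGroup ι F) : Matrix ι ι F)ᵀ, by rw [det_transpose]; exact (g⁻¹).2⟩

theorem itM_coe (g : SpecialLinearGroup ι F) :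
    ((itM g : SpecialLinearGroup ι F) : Matrix ι ι F) = ((g⁻¹ : SpecialLinearGroup ι F) : Matrix ι ι F)ᵀ := rfl

theorem itM_mul (g h : SpecialLinearGroup ι F) : itM (g * h) = itM g * itM h := by
  apply sl_ext
  simp only [itM_coe, Matrix.SpecialLinearGroup.coe_mul, _root_.mul_inv_rev, transpose_mul]

theorem itM_itM (g : SpecialLinearGroup ι F) : itM (itM g) = g := by
  apply sl_ext
  rw [itM_coe]
  have h1 : ((itM g)⁻¹ : SpecialLinearGroup ι F).1 * (itM g).1 = 1 := coe_inv_mul_coe _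
  have h2 : (g : Matrix ι ι F) * ((g⁻¹ : SpecialLinearGroup ι F) : Matrix ι ι F) = 1 := coe_mul_coe_inv g
  have h3 : ((itM g)⁻¹ : SpecialLinearGroup ι F).1ᵀ = g.1 := by
    have h4 : ((g⁻¹ : SpecialLinearGroup ι F) : Matrix ι ι F) * ((itM g)⁻¹ : SpecialLinearGroup ι F).1ᵀ = 1 := by
      have := congrArg Matrix.transpose h1
      rwa [transpose_mul, itM_coe, transpose_transpose, transpose_one] at this
    calc ((itM g)⁻¹ : SpecialLinearGroup ι F).1ᵀ = (g : Matrix ι ι F) * ((g⁻¹ : SpecialLinearGroup ι F) : Matrix ι ι F) * ((itM g)⁻¹ : SpecialLinearGroup ι F).1ᵀ := by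
          rw [h2, one_mul]
      _ = g.1 := by rw [Matrix.mul_assoc, h4, Matrix.mul_one]
  exact h3

/-- The inverse-transpose automorphism as a group isomorphism. -/
def itE : SpecialLinearGroup ι F ≃* SpecialLinearGroup ι F where
  toFun := itM
  invFun := itM
  left_inv := itM_itM
  right_inv := itM_itM
  map_mul' := itM_mul

@[simp] theorem itE_apply (g : SpecialLinearGroup ι F) : itE g = itM g := rfl

theorem itM_tv {x φ : ι → F} (h : φ ⬝ᵥ x = 0) : itM (tv x φ) = tv (-φ) x := by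
  apply sl_ext
  have h' : x ⬝ᵥ (-φ) = 0 := by rw [dotProduct_neg, dotProduct_comm, h, neg_zero]
  rw [itM_coe, ← tv_neg h, tv_coe (by rw [neg_dotProduct, h, neg_zero]), tv_coe h']
  ext i j
  simp [vecMulVec_apply, Matrix.add_apply, Matrix.one_apply, transpose_apply, eq_comm, mul_comm]

end Cfsg.Agent.Lib.MinIndex
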