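import Mathlib
import Cfsg.Agent.Lib.MinIndex.Basic

/-! Complements of the transvection group with a fixed centre inside the stabiliser of a line:
the cocycle computation showing that such a complement contains a transvection. -/

set_option autoImplicit false
set_option linter.unusedSectionVars false
set_option linter.unusedSimpArgs false
set_option linter.unusedVariables false

namespace Cfsg.Agent.Lib.MinIndex

open Matrix

variable {ι : Type} [Fintype ι] [DecidableEq ι] {F : Type*} [Field F]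

/-- Block diagonal matrices with respect to the coordinate `o`. -/
def Blk (o : ι) (g : SpecialLinearGroup ι F) : Prop :=
  (∀ i, i ≠ o → (g : Matrix ι ι F) i o = 0) ∧ (∀ j, j ≠ o → (g : Matrix ι ι F) o j = 0)

theorem blk_mulVec {o : ι} {g : SpecialLinearGroup ι F} (hg : Blk o g) :
    (g : Matrix ι ι F) *ᵥ (Pi.single o 1 : ι → F) = ((g : Matrix ι ι F) o o) • (Pi.single o 1 : ι → F) := by
  funext i
  rw [mulVec_single_one]
  by_cases h : i = o
  · subst h
    simp
  · simp [hg.1 i h, Pi.single_apply, h]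

theorem blk_vecMul_o {o : ι} {g : SpecialLinearGroup ι F} (hg : Blk o g) {w : ι → F} (hw : w o = 0) :
    (w ᵥ* (g : Matrix ι ι F)) o = 0 := by
  rw [vecMul, dotProduct]
  refine Finset.sum_eq_zero (fun i _ => ?_)
  by_cases h : i = o
  · subst h
    rw [hw, zero_mul]
  · show w i * (g : Matrix ι ι F) i o = 0
    rw [hg.1 i h, mul_zero]

theorem blk_mul {o : ι} {g g' : SpecialLinearGroup ι F} (hg : Blk o g) (hg' : Blk o g') :
    Blk o (g * g') ∧ ((g * g' : SpecialLinearGroup ι F) : Matrix ι ι F) o o =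
      (g : Matrix ι ι F) o o * (g' : Matrix ι ι F) o o := by
  simp only [Blk, Matrix.SpecialLinearGroup.coe_mul, Matrix.mul_apply]
  refine ⟨⟨?_, ?_⟩, ?_⟩
  · intro i hi
    refine Finset.sum_eq_zero (fun k _ => ?_)
    by_cases h : k = o
    · subst h
      rw [hg.1 i hi, zero_mul]
    · rw [hg'.1 k h, mul_zero]
  · intro j hj
    refine Finset.sum_eq_zero (fun k _ => ?_)
    by_cases h : k = o
    · subst h
      rw [hg'.2 j hj, mul_zero]
    · rw [hg.2 k h, zero_mul]
  · rw [Finset.sum_eq_single o]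
    · intro k _ h
      rw [hg.2 k h, zero_mul]
    · simp

/-- `w` is the cocycle value at `g`: `g + e ⊗ w ∈ H`. -/
def IsZ (H : Subgroup (SpecialLinearGroup ι F)) (o : ι) (g : SpecialLinearGroup ι F) (w : ι → F) : Prop :=
  w o = 0 ∧ ∃ h ∈ H, (h : Matrix ι ι F) = (g : Matrix ι ι F) + vecMulVec (Pi.single o 1) w

theorem exists_isZ {H : Subgroup (SpecialLinearGroup ι F)} {o : ι}
    (hA : ∀ g : SpecialLinearGroup ι F, ∃ φ : ι → F, φ ⬝ᵥ (Pi.single o 1 : ι → F) = 0 ∧ tv (Pi.single o 1) φ * g ∈ H)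
    {g : SpecialLinearGroup ι F} (hg : Blk o g) : ∃ w, IsZ H o g w := by
  obtain ⟨φ, h0, h1⟩ := hA g
  have h0' : φ o = 0 := by simpa using h0
  refine ⟨φ ᵥ* (g : Matrix ι ι F), blk_vecMul_o hg h0', _, h1, ?_⟩
  simp only [Matrix.SpecialLinearGroup.coe_mul]
  rw [tv_coe h0, add_mul, one_mul, vecMulVec_mul]

theorem isZ_mul {H : Subgroup (SpecialLinearGroup ι F)} {o : ι} {g g' : SpecialLinearGroup ι F} {w w' : ι → F}
    (hg : Blk o g) (hg' : Blk o g') (h : IsZ H o g w) (h' : IsZ H o g' w') :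
    IsZ H o (g * g') (((g : Matrix ι ι F) o o) • w' + w ᵥ* (g' : Matrix ι ι F)) := by
  obtain ⟨h0, x, hx, hxe⟩ := h
  obtain ⟨h0', x', hx', hxe'⟩ := h'
  refine ⟨?_, x * x', H.mul_mem hx hx', ?_⟩
  · rw [Pi.add_apply, Pi.smul_apply, h0', blk_vecMul_o hg' h0]
    simp
  · simp only [Matrix.SpecialLinearGroup.coe_mul]
    rw [hxe, hxe', add_mul, mul_add, mul_add, mul_vecMulVec, blk_mulVec hg, vecMulVec_mul, vecMulVec_mul_vecMulVec]
    have e0 : w ⬝ᵥ (Pi.single o 1 : ι → F) = 0 := by simpa using h0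
    rw [e0]
    ext i j
    simp [vecMulVec_apply, Matrix.add_apply, mul_add]
    ring

theorem isZ_one (H : Subgroup (SpecialLinearGroup ι F)) (o : ι) : IsZ H o 1 0 := by
  refine ⟨rfl, 1, H.one_mem, ?_⟩
  simp

/-- Uniqueness of the cocycle value, when `H` has no transvection. -/
theorem isZ_unique {H : Subgroup (SpecialLinearGroup ι F)} {o : ι}
    (hnt : ∀ x φ : ι → F, x ≠ 0 → φ ≠ 0 → φ ⬝ᵥ x = 0 → tv x φ ∉ H)
    {g : SpecialLinearGroup ι F} {w w' : ι → F} (hg : Blk o g) (h : IsZ H o g w) (h' : IsZ H o g w') : w = w' := by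
  obtain ⟨h0, x, hx, hxe⟩ := h
  obtain ⟨h0', x', hx', hxe'⟩ := h'
  by_contra hne
  have hy : w - w' ≠ 0 := sub_ne_zero.2 hne
  have hes : (Pi.single o 1 : ι → F) ≠ 0 := by
    intro h
    have := congrFun h o
    simp at this
  -- the image of `e`
  have e1 : act x' (Pi.single o 1) = ((g : Matrix ι ι F) o o) • (Pi.single o 1 : ι → F) := by
    simp only [act]
    rw [hxe', add_mulVec, blk_mulVec hg, vecMulVec_mulVec]
    have e0 : w' ⬝ᵥ (Pi.single o 1 : ι → F) = 0 := by simpa using h0'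
    rw [e0]
    simp
  have hne0 : act x'⁻¹ (Pi.single o 1) ≠ 0 := act_ne_zero _ hes
  have e2 : ((g : Matrix ι ι F) o o) • act x'⁻¹ (Pi.single o 1) = (Pi.single o 1 : ι → F) := by
    rw [← act_smul, ← e1, act_inv_act]
  have ha : (g : Matrix ι ι F) o o ≠ 0 := by
    intro h
    rw [h, zero_smul] at e2
    exact hes e2.symm
  have e3 : act x'⁻¹ (Pi.single o 1) = ((g : Matrix ι ι F) o o)⁻¹ • (Pi.single o 1 : ι → F) := by
    rw [eq_inv_smul_iff₀ ha]
    exact e2
  have hdot : (w - w') ⬝ᵥ act x'⁻¹ (Pi.single o 1) = 0 := by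
    rw [e3, dotProduct_smul]
    have : (w - w') ⬝ᵥ (Pi.single o 1 : ι → F) = 0 := by
      simp [h0, h0']
    rw [this, smul_zero]
  apply hnt _ _ hne0 hy hdot
  have e4 : tv (act x'⁻¹ (Pi.single o 1)) (w - w') = x'⁻¹ * x := by
    apply sl_ext
    rw [tv_coe hdot]
    simp only [Matrix.SpecialLinearGroup.coe_mul]
    have e5 : (x : Matrix ι ι F) = (x' : Matrix ι ι F) + vecMulVec (Pi.single o 1) (w - w') := by
      rw [hxe, hxe']
      ext i j
      simp [vecMulVec_apply, Matrix.add_apply, mul_sub]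
    rw [e5, mul_add, coe_inv_mul_coe, mul_vecMulVec]
  rw [e4]
  exact H.mul_mem (H.inv_mem hx') hx

theorem isZ_comm {H : Subgroup (SpecialLinearGroup ι F)} {o : ι}
    (hnt : ∀ x φ : ι → F, x ≠ 0 → φ ≠ 0 → φ ⬝ᵥ x = 0 → tv x φ ∉ H)
    {g g' : SpecialLinearGroup ι F} {w w' : ι → F} (hg : Blk o g) (hg' : Blk o g') (hc : g * g' = g' * g)
    (h : IsZ H o g w) (h' : IsZ H o g' w') :
    ((g : Matrix ι ι F) o o) • w' + w ᵥ* (g' : Matrix ι ι F) =
      ((g' : Matrix ι ι F) o o) • w + w' ᵥ* (g : Matrix ι ι F) := by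
  have h1 := isZ_mul hg hg' h h'
  have h2 := isZ_mul hg' hg h' h
  rw [← hc] at h2
  exact isZ_unique hnt (blk_mul hg hg').1 h1 h2

/-! Root elements and diagonal elements. -/

/-- The root element `1 + E_{uv}`. -/
noncomputable def xr (u v : ι) : SpecialLinearGroup ι F := tv (Pi.single u 1) (Pi.single v 1)

theorem xr_dot {u v : ι} (h : u ≠ v) : (Pi.single v 1 : ι → F) ⬝ᵥ (Pi.single u 1 : ι → F) = 0 := by
  simp [h, h.symm, Pi.single_apply]

theorem xr_coe {u v : ι} (h : u ≠ v) : ((xr u v : SpecialLinearGroup ι F) : Matrix ι ι F) =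
    1 + vecMulVec (Pi.single u 1) (Pi.single v 1) := tv_coe (xr_dot h)

theorem xr_apply {u v : ι} (h : u ≠ v) (i j : ι) : ((xr u v : SpecialLinearGroup ι F) : Matrix ι ι F) i j =
    (if i = j then 1 else 0) + (if i = u ∧ j = v then 1 else 0) := by
  rw [xr_coe h, Matrix.add_apply, Matrix.one_apply, vecMulVec_apply]
  simp only [Pi.single_apply]
  split_ifs <;> simp_all

theorem xr_blk {o u v : ι} (h : u ≠ v) (hu : u ≠ o) (hv : v ≠ o) : Blk o (xr u v : SpecialLinearGroup ι F) := by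
  constructor
  · intro i hi
    rw [xr_apply h]
    simp [hi, hv.symm]
  · intro j hj
    rw [xr_apply h]
    simp [hj.symm, hu.symm]

theorem xr_oo {o u v : ι} (h : u ≠ v) (hu : u ≠ o) : ((xr u v : SpecialLinearGroup ι F) : Matrix ι ι F) o o = 1 := by
  rw [xr_apply h]
  simp [hu.symm]

theorem vecMul_xr {u v : ι} (h : u ≠ v) (w : ι → F) (j : ι) :
    (w ᵥ* ((xr u v : SpecialLinearGroup ι F) : Matrix ι ι F)) j = w j + if j = v then w u else 0 := by
  rw [xr_coe h, vecMul_add, vecMul_one, vecMul_vecMulVec]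
  simp only [Pi.add_apply, Pi.smul_apply, smul_eq_mul, Pi.single_apply, dotProduct_single, mul_one,
    op_smul_eq_smul]
  split_ifs <;> simp

theorem dot_single_single (a b : ι) :
    (Pi.single a 1 : ι → F) ⬝ᵥ (Pi.single b 1 : ι → F) = if a = b then 1 else 0 := by
  rw [dotProduct_single, mul_one, Pi.single_apply]
  simp [eq_comm]

theorem xr_comm {u v u' v' : ι} (h : u ≠ v) (h' : u' ≠ v') (h1 : v ≠ u') (h2 : v' ≠ u) :
    (xr u v * xr u' v' : SpecialLinearGroup ι F) = xr u' v' * xr u v := by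
  apply sl_ext
  simp only [Matrix.SpecialLinearGroup.coe_mul]
  rw [xr_coe h, xr_coe h']
  simp only [add_mul, mul_add, one_mul, mul_one, vecMulVec_mul_vecMulVec, dot_single_single, h1, h2,
    if_false, zero_smul, smul_zero, vecMulVec_zero, zero_vecMulVec, add_zero, zero_add, op_smul_eq_smul]
  abel

theorem xr_rel {j u v : ι} (h1 : j ≠ u) (h2 : u ≠ v) (h3 : j ≠ v) :
    (xr j u * xr u v : SpecialLinearGroup ι F) = xr u v * xr j v * xr j u := by
  apply sl_ext
  simp only [Matrix.SpecialLinearGroup.coe_mul]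
  rw [xr_coe h1, xr_coe h2, xr_coe h3]
  simp only [add_mul, mul_add, one_mul, mul_one, vecMulVec_mul_vecMulVec, dot_single_single, h1, h2, h3,
    h1.symm, h2.symm, h3.symm, if_false, if_true, zero_smul, smul_zero, one_smul, vecMulVec_zero, zero_vecMulVec, add_zero, zero_add,
    op_smul_eq_smul]
  abel

/-- The diagonal function. -/
def dfun (p q : ι) (μ : F) (i : ι) : F := if i = p then μ else if i = q then μ⁻¹ else 1

theorem dfun_prod {p q : ι} (hpq : p ≠ q) {μ : F} (hμ : μ ≠ 0) : ∏ i, dfun p q μ i = 1 := by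
  rw [Finset.prod_eq_mul p q hpq]
  · simp [dfun, hpq, hpq.symm, hμ]
  · rintro c - ⟨h1, h2⟩
    simp [dfun, h1, h2]
  · simp
  · simp

/-- The diagonal element with `μ` at `p` and `μ⁻¹` at `q`. -/
def dg (p q : ι) (hpq : p ≠ q) (μ : F) (hμ : μ ≠ 0) : SpecialLinearGroup ι F :=
  ⟨diagonal (dfun p q μ), by rw [det_diagonal, dfun_prod hpq hμ]⟩

theorem dg_coe {p q : ι} (hpq : p ≠ q) {μ : F} (hμ : μ ≠ 0) :
    ((dg p q hpq μ hμ : SpecialLinearGroup ι F) : Matrix ι ι F) = diagonal (dfun p q μ) := rfl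

theorem dg_blk {o p q : ι} (hpq : p ≠ q) {μ : F} (hμ : μ ≠ 0) : Blk o (dg p q hpq μ hμ) := by
  constructor
  · intro i hi
    rw [dg_coe, diagonal_apply_ne _ hi]
  · intro j hj
    rw [dg_coe, diagonal_apply_ne _ hj.symm]

theorem dg_oo {o p q : ι} (hpq : p ≠ q) {μ : F} (hμ : μ ≠ 0) :
    ((dg p q hpq μ hμ : SpecialLinearGroup ι F) : Matrix ι ι F) o o = dfun p q μ o := by
  rw [dg_coe, diagonal_apply_eq]

theorem vecMul_dg {p q : ι} (hpq : p ≠ q) {μ : F} (hμ : μ ≠ 0) (w : ι → F) (j : ι) :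
    (w ᵥ* ((dg p q hpq μ hμ : SpecialLinearGroup ι F) : Matrix ι ι F)) j = w j * dfun p q μ j := by
  rw [dg_coe, vecMul_diagonal]

theorem dg_comm_dg {p q p' q' : ι} (hpq : p ≠ q) (hpq' : p' ≠ q') {μ μ' : F} (hμ : μ ≠ 0) (hμ' : μ' ≠ 0) :
    dg p q hpq μ hμ * dg p' q' hpq' μ' hμ' = dg p' q' hpq' μ' hμ' * dg p q hpq μ hμ := by
  apply sl_ext
  simp only [Matrix.SpecialLinearGroup.coe_mul]
  rw [dg_coe, dg_coe, diagonal_mul_diagonal, diagonal_mul_diagonal]
  congr 1
  funext i
  ring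

theorem dg_comm_xr {p q u v : ι} (hpq : p ≠ q) (huv : u ≠ v) {μ : F} (hμ : μ ≠ 0)
    (h : dfun p q μ u = dfun p q μ v) : dg p q hpq μ hμ * xr u v = xr u v * dg p q hpq μ hμ := by
  apply sl_ext
  simp only [Matrix.SpecialLinearGroup.coe_mul]
  ext a b
  rw [dg_coe, diagonal_mul, mul_diagonal, xr_apply huv]
  by_cases h1 : a = b
  · subst h1
    simp only [if_true]
    by_cases h2 : a = u ∧ a = v
    · exact absurd (h2.1.symm.trans h2.2) huv
    · simp [h2]
  · by_cases h2 : a = u ∧ b = v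
    · obtain ⟨rfl, rfl⟩ := h2
      simp [h]
      ring
    · simp [h1, h2]

/-! The main computation. -/

section Main

variable {H : Subgroup (SpecialLinearGroup ι F)} {o : ι}

/-- The first coordinate relation: the value at the source of the root vanishes. -/
theorem value_source
    (hA : ∀ g : SpecialLinearGroup ι F, ∃ φ : ι → F, φ ⬝ᵥ (Pi.single o 1 : ι → F) = 0 ∧ tv (Pi.single o 1) φ * g ∈ H)
    (hnt : ∀ x φ : ι → F, x ≠ 0 → φ ≠ 0 → φ ⬝ᵥ x = 0 → tv x φ ∉ H)
    {u v : ι} (huv : u ≠ v) (hu : u ≠ o) (hv : v ≠ o) {y : ι → F} (hy : IsZ H o (xr u v) y) : y u = 0 := by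
  have hb : Blk o (xr u v : SpecialLinearGroup ι F) := xr_blk huv hu hv
  by_cases h2 : (2 : F) = 0
  · -- characteristic two: the root element is an involution
    have hsq : (xr u v * xr u v : SpecialLinearGroup ι F) = 1 := by
      unfold xr
      rw [← tv_add (xr_dot huv) (xr_dot huv)]
      have : (Pi.single v 1 : ι → F) + Pi.single v 1 = 0 := by
        funext i
        simp only [Pi.add_apply, Pi.zero_apply]
        rw [← two_mul, h2, zero_mul]
      rw [this, tv_zero_right]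
    have h1 := isZ_mul hb hb hy hy
    rw [hsq] at h1
    have h3 := isZ_unique hnt ⟨fun i hi => by simp [hi], fun j hj => by simp [hj.symm]⟩ h1 (isZ_one H o)
    have h4 := congrFun h3 v
    rw [xr_oo huv hu, one_smul, Pi.add_apply, vecMul_xr huv, if_pos rfl, Pi.zero_apply] at h4
    have h5 : (2 : F) * y v + y u = 0 := by
      rw [← h4]
      ring
    rw [h2, zero_mul, zero_add] at h5
    exact h5
  · -- otherwise use the diagonal element with `-1` at `u` and `v`
    have hm : (-1 : F) ≠ 0 := by simp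
    have hb' : Blk o (dg u v huv (-1 : F) hm) := dg_blk _ _
    obtain ⟨w, hw⟩ := exists_isZ hA hb'
    have hfu : dfun u v (-1 : F) u = -1 := by simp [dfun]
    have hfv : dfun u v (-1 : F) v = -1 := by simp [dfun, huv.symm]
    have hfo : dfun u v (-1 : F) o = 1 := by simp [dfun, hu.symm, hv.symm]
    have hc := isZ_comm hnt hb hb' (dg_comm_xr huv huv hm (hfu.trans hfv.symm)).symm hy hw
    have h4 := congrFun hc u
    rw [xr_oo huv hu, dg_oo, hfo, one_smul, one_smul, Pi.add_apply, Pi.add_apply, vecMul_dg, hfu, vecMul_xr huv,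
      if_neg huv] at h4
    have h5 : (2 : F) * y u = 0 := by
      linear_combination -h4
    exact (mul_eq_zero.1 h5).resolve_left h2

/-- If there is a fourth coordinate, root elements commute enough. -/
theorem value_other_root
    (hA : ∀ g : SpecialLinearGroup ι F, ∃ φ : ι → F, φ ⬝ᵥ (Pi.single o 1 : ι → F) = 0 ∧ tv (Pi.single o 1) φ * g ∈ H)
    (hnt : ∀ x φ : ι → F, x ≠ 0 → φ ≠ 0 → φ ⬝ᵥ x = 0 → tv x φ ∉ H)
    {u v j j' : ι} (huv : u ≠ v) (hu : u ≠ o) (hv : v ≠ o) (hj : j ≠ o) (hj' : j' ≠ o) (hjj : j ≠ j')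
    (h1 : v ≠ j) (h2 : j' ≠ u) (h3 : j' ≠ v) {y : ι → F} (hy : IsZ H o (xr u v) y) : y j = 0 := by
  have hb : Blk o (xr u v : SpecialLinearGroup ι F) := xr_blk huv hu hv
  have hb' : Blk o (xr j j' : SpecialLinearGroup ι F) := xr_blk hjj hj hj'
  obtain ⟨w, hw⟩ := exists_isZ hA hb'
  have hc := isZ_comm hnt hb hb' (xr_comm huv hjj h1 h2) hy hw
  have h4 := congrFun hc j'
  rw [xr_oo huv hu, xr_oo hjj hj, one_smul, one_smul, Pi.add_apply, Pi.add_apply, vecMul_xr hjj, vecMul_xr huv,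
    if_pos rfl, if_neg h3] at h4
  linear_combination h4

/-- The diagonal element with `ν`, `ν² ≠ 1`, at the third coordinate. -/
theorem value_other_diag
    (hA : ∀ g : SpecialLinearGroup ι F, ∃ φ : ι → F, φ ⬝ᵥ (Pi.single o 1 : ι → F) = 0 ∧ tv (Pi.single o 1) φ * g ∈ H)
    (hnt : ∀ x φ : ι → F, x ≠ 0 → φ ≠ 0 → φ ⬝ᵥ x = 0 → tv x φ ∉ H)
    {u v j : ι} (huv : u ≠ v) (hu : u ≠ o) (hv : v ≠ o) (hj : j ≠ o) (h1 : v ≠ j) (h2 : u ≠ j) {ν : F} (hν : ν ≠ 0)
    (hν2 : ν * ν ≠ 1) {y : ι → F} (hy : IsZ H o (xr u v) y) : y j = 0 := by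
  have hb : Blk o (xr u v : SpecialLinearGroup ι F) := xr_blk huv hu hv
  have hb' : Blk o (dg j o hj ν hν) := dg_blk _ _
  obtain ⟨w, hw⟩ := exists_isZ hA hb'
  have hfu : dfun j o ν u = 1 := by simp [dfun, h2, hu]
  have hfv : dfun j o ν v = 1 := by simp [dfun, h1, hv]
  have hfj : dfun j o ν j = ν := by simp [dfun]
  have hfo : dfun j o ν o = ν⁻¹ := by simp [dfun, hj.symm]
  have hc := isZ_comm hnt hb hb' (dg_comm_xr hj huv hν (hfu.trans hfv.symm)).symm hy hw
  have h4 := congrFun hc j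
  rw [xr_oo huv hu, dg_oo, hfo, one_smul, Pi.add_apply, Pi.add_apply, vecMul_dg, hfj, vecMul_xr huv, if_neg h1.symm,
    Pi.smul_apply, smul_eq_mul] at h4
  have h5 : y j * (ν - ν⁻¹) = 0 := by
    linear_combination h4
  have h6 : ν - ν⁻¹ ≠ 0 := by
    intro h
    apply hν2
    have : ν * (ν - ν⁻¹) = 0 := by rw [h, mul_zero]
    rw [mul_sub, mul_inv_cancel₀ hν] at this
    exact sub_eq_zero.1 this
  exact (mul_eq_zero.1 h5).resolve_right h6

/-- Characteristic not two: the relation between root elements. -/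
theorem value_other_rel
    (hA : ∀ g : SpecialLinearGroup ι F, ∃ φ : ι → F, φ ⬝ᵥ (Pi.single o 1 : ι → F) = 0 ∧ tv (Pi.single o 1) φ * g ∈ H)
    (hnt : ∀ x φ : ι → F, x ≠ 0 → φ ≠ 0 → φ ⬝ᵥ x = 0 → tv x φ ∉ H)
    {u v j : ι} (huv : u ≠ v) (hu : u ≠ o) (hv : v ≠ o) (hj : j ≠ o) (h1 : j ≠ v) (h3 : j ≠ u) (h2 : (2 : F) ≠ 0)
    {y : ι → F} (hy : IsZ H o (xr u v) y) : y j = 0 := by
  have hb : Blk o (xr u v : SpecialLinearGroup ι F) := xr_blk huv hu hv
  have hb12 : Blk o (xr j v : SpecialLinearGroup ι F) := xr_blk h1 hj hv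
  have hb13 : Blk o (xr j u : SpecialLinearGroup ι F) := xr_blk h3 hj hu
  obtain ⟨y12, hy12⟩ := exists_isZ hA hb12
  obtain ⟨y13, hy13⟩ := exists_isZ hA hb13
  have hm : (-1 : F) ≠ 0 := by simp
  have hd2 : Blk o (dg v o hv (-1 : F) hm) := dg_blk _ _
  have hd3 : Blk o (dg u o hu (-1 : F) hm) := dg_blk _ _
  obtain ⟨z2, hz2⟩ := exists_isZ hA hd2
  obtain ⟨z3, hz3⟩ := exists_isZ hA hd3
  -- the relation
  have R1 := isZ_mul hb13 hb hy13 hy
  have hb32 := blk_mul hb hb12
  have R2 := isZ_mul hb hb12 hy hy12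
  have R3 := isZ_mul hb32.1 hb13 R2 hy13
  rw [← xr_rel h3 huv h1] at R3
  have R := isZ_unique hnt (blk_mul hb13 hb).1 R1 R3
  have Rv := congrFun R v
  rw [hb32.2, xr_oo huv hu, xr_oo h3 hj, xr_oo h1 hj, one_mul, one_smul, one_smul, one_smul, Pi.add_apply, Pi.add_apply,
    vecMul_xr huv, vecMul_xr h3, if_pos rfl, if_neg huv.symm, Pi.add_apply, vecMul_xr h1, if_pos rfl] at Rv
  -- first diagonal element
  have f2j : dfun v o (-1 : F) j = 1 := by simp [dfun, h1, hj]
  have f2u : dfun v o (-1 : F) u = 1 := by simp [dfun, huv, hu]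
  have f2o : dfun v o (-1 : F) o = -1 := by simp [dfun, hv.symm]
  have C2 := isZ_comm hnt hb13 hd2 (dg_comm_xr hv h3 hm (f2j.trans f2u.symm)).symm hy13 hz2
  have C2u := congrFun C2 u
  rw [xr_oo h3 hj, dg_oo, f2o, one_smul, Pi.add_apply, Pi.add_apply, vecMul_dg, f2u, vecMul_xr h3, if_pos rfl,
    Pi.smul_apply, smul_eq_mul] at C2u
  -- second diagonal element
  have f3j : dfun u o (-1 : F) j = 1 := by simp [dfun, h3, hj]
  have f3v : dfun u o (-1 : F) v = 1 := by simp [dfun, huv.symm, hv]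
  have f3o : dfun u o (-1 : F) o = -1 := by simp [dfun, hu.symm]
  have C3 := isZ_comm hnt hb12 hd3 (dg_comm_xr hu h1 hm (f3j.trans f3v.symm)).symm hy12 hz3
  have C3v := congrFun C3 v
  rw [xr_oo h1 hj, dg_oo, f3o, one_smul, Pi.add_apply, Pi.add_apply, vecMul_dg, f3v, vecMul_xr h1, if_pos rfl,
    Pi.smul_apply, smul_eq_mul] at C3v
  -- the two diagonal elements
  have C23 := isZ_comm hnt hd2 hd3 (dg_comm_dg hv hu hm hm) hz2 hz3
  have C23j := congrFun C23 j
  rw [dg_oo, dg_oo, f2o, f3o, Pi.add_apply, Pi.add_apply, vecMul_dg, vecMul_dg, f2j, f3j,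
    Pi.smul_apply, Pi.smul_apply, smul_eq_mul, smul_eq_mul] at C23j
  have e1 : (2 : F) * z2 j = 2 * z3 j := by linear_combination C23j
  have e2 : z2 j = z3 j := mul_left_cancel₀ h2 e1
  have e3 : (2 : F) * y13 u = z2 j := by linear_combination C2u
  have e4 : (2 : F) * y12 v = z3 j := by linear_combination C3v
  have e5 : (2 : F) * y j = 0 := by
    have : y j = y13 u - y12 v := by linear_combination -Rv
    rw [this]
    linear_combination e3 - e4 + e2
  exact (mul_eq_zero.1 e5).resolve_left h2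

/-- The main theorem on complements. -/
theorem no_complement
    (hA : ∀ g : SpecialLinearGroup ι F, ∃ φ : ι → F, φ ⬝ᵥ (Pi.single o 1 : ι → F) = 0 ∧ tv (Pi.single o 1) φ * g ∈ H)
    (hnt : ∀ x φ : ι → F, x ≠ 0 → φ ≠ 0 → φ ⬝ᵥ x = 0 → tv x φ ∉ H)
    (hι : 3 ≤ Nat.card ι) (hexc : ¬ (Nat.card ι = 4 ∧ Nat.card F = 2)) : False := by
  classical
  -- two further coordinates
  obtain ⟨u, hu⟩ : ∃ u, u ≠ o := by
    by_contra h
    push Not at h
    have : Nat.card ι ≤ 1 := Finite.card_le_one_iff_subsingleton.2 ⟨fun a b => (h a).trans (h b).symm⟩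
    omega
  obtain ⟨v, hv, huv⟩ : ∃ v, v ≠ o ∧ u ≠ v := by
    by_contra h
    push Not at h
    have hsub : (Finset.univ : Finset ι) ⊆ {o, u} := by
      intro x _
      by_cases hx : x = o
      · simp [hx]
      · simp [(h x hx).symm]
    have := Finset.card_le_card hsub
    rw [Finset.card_univ, ← Nat.card_eq_fintype_card] at this
    have h2 := Finset.card_le_two (a := o) (b := u)
    omega
  obtain ⟨y, hy⟩ := exists_isZ hA (xr_blk (F := F) huv hu hv)
  have hall : ∀ j, j ≠ v → y j = 0 := by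
    intro j hjv
    by_cases hjo : j = o
    · subst hjo
      exact hy.1
    by_cases hju : j = u
    · subst hju
      exact value_source hA hnt huv hu hv hy
    by_cases h2 : (2 : F) = 0
    · by_cases hex : ∃ j', j' ≠ o ∧ j ≠ j' ∧ j' ≠ u ∧ j' ≠ v
      · obtain ⟨j', h1, h3, h4, h5⟩ := hex
        exact value_other_root hA hnt huv hu hv hjo h1 h3 (Ne.symm hjv) h4 h5 hy
      · push Not at hex
        -- exactly four coordinates, so the field is not the field with two elements
        have hsub : (Finset.univ : Finset ι) ⊆ {o, u, v, j} := by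
          intro x _
          by_cases hx1 : x = o
          · simp [hx1]
          by_cases hx2 : x = j
          · simp [hx2]
          by_cases hx3 : x = u
          · simp [hx3]
          have := hex x hx1 (Ne.symm hx2) hx3
          simp [this]
        have hcard : Nat.card ι ≤ 4 := by
          have := Finset.card_le_card hsub
          rw [Finset.card_univ, ← Nat.card_eq_fintype_card] at this
          exact this.trans Finset.card_le_four
        have hcard4 : 4 ≤ Nat.card ι := by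
          have h4 : ({o, u, v, j} : Finset ι).card = 4 := by
            rw [Finset.card_insert_of_notMem, Finset.card_insert_of_notMem, Finset.card_insert_of_notMem, Finset.card_singleton]
            · simpa using hjv.symm
            · simp [huv, Ne.symm hju]
            · simp [hu.symm, hv.symm, Ne.symm hjo]
          have h5 := Finset.card_le_univ ({o, u, v, j} : Finset ι)
          rw [h4, ← Nat.card_eq_fintype_card] at h5
          exact h5
        have hF : Nat.card F ≠ 2 := fun h => hexc ⟨by omega, h⟩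
        obtain ⟨ν, hν0, hν1⟩ : ∃ ν : F, ν ≠ 0 ∧ ν ≠ 1 := by
          by_contra hcon
          push Not at hcon
          apply hF
          rw [Nat.card_eq_two_iff]
          refine ⟨0, 1, zero_ne_one, ?_⟩
          ext x
          simp only [Set.mem_insert_iff, Set.mem_singleton_iff, Set.mem_univ, iff_true]
          by_cases hx : x = 0
          · exact Or.inl hx
          · exact Or.inr (hcon x hx)
        have hν2 : ν * ν ≠ 1 := by
          intro hsq
          have h6 : (ν + 1) * (ν + 1) = 0 := by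
            have : (ν + 1) * (ν + 1) = ν * ν + 2 * ν + 1 := by ring
            rw [this, hsq, h2]
            have : (1 : F) + 0 * ν + 1 = 2 := by ring
            rw [this, h2]
          have h7 : ν + 1 = 0 := by simpa using h6
          apply hν1
          linear_combination h7 - h2
        exact value_other_diag hA hnt huv hu hv hjo (Ne.symm hjv) (Ne.symm hju) hν0 hν2 hy
    · exact value_other_rel hA hnt huv hu hv hjo (by exact hjv) hju h2 hy
  -- the value is a multiple of the functional, so the lift is a transvection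
  have hye : y = y v • (Pi.single v 1 : ι → F) := by
    funext j
    by_cases hj : j = v
    · subst hj
      simp
    · simp [hall j hj, hj]
  obtain ⟨h0, h, hh, hhe⟩ := hy
  set c := y v with hc
  have hne : (Pi.single v 1 : ι → F) ≠ 0 := by
    intro h
    have := congrFun h v
    simp at this
  have hdot : (Pi.single v 1 : ι → F) ⬝ᵥ (Pi.single u 1 + c • Pi.single o 1 : ι → F) = 0 := by
    rw [dotProduct_add, dotProduct_smul, dot_single_single, dot_single_single, if_neg huv.symm, if_neg hv]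
    simp
  have hx : (Pi.single u 1 + c • Pi.single o 1 : ι → F) ≠ 0 := by
    intro h
    have := congrFun h u
    simp [hu, Pi.single_apply] at this
  apply hnt _ _ hx hne hdot
  have e : tv (Pi.single u 1 + c • Pi.single o 1 : ι → F) (Pi.single v 1) = h := by
    apply sl_ext
    rw [tv_coe hdot, hhe, xr_coe huv, hye]
    ext a b
    simp [vecMulVec_apply, add_mul, Matrix.add_apply, mul_assoc, mul_left_comm, mul_comm]
    ring
  rw [e]
  exact hh

end Main

end Cfsg.Agent.Lib.MinIndex
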