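import Mathlib
import Cfsg.Agent.Lib.MinIndex.Basic

/-! Duality of additive subgroups of `F^n` with respect to an additive character of `F`. -/

set_option autoImplicit false
set_option linter.unusedSectionVars false
set_option linter.unusedSimpArgs false
set_option linter.unusedVariables false

namespace Cfsg.Agent.Lib.MinIndex

open Matrix

variable {ι : Type} [Fintype ι] [DecidableEq ι] {F : Type*} [Field F] [Fintype F]

/-- The annihilator of an additive subgroup with respect to `ψ`. -/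
def perp (ψ : AddChar F ℂ) (S : AddSubgroup (ι → F)) : AddSubgroup (ι → F) where
  carrier := {v | ∀ φ ∈ S, ψ (φ ⬝ᵥ v) = 1}
  zero_mem' := by
    intro φ _
    simp
  add_mem' := by
    intro v w hv hw φ hφ
    rw [dotProduct_add, AddChar.map_add_eq_mul, hv φ hφ, hw φ hφ, one_mul]
  neg_mem' := by
    intro v hv φ hφ
    rw [dotProduct_neg, AddChar.map_neg_eq_inv, hv φ hφ, inv_one]

theorem mem_perp {ψ : AddChar F ℂ} {S : AddSubgroup (ι → F)} {v : ι → F} :
    v ∈ perp ψ S ↔ ∀ φ ∈ S, ψ (φ ⬝ᵥ v) = 1 := Iff.rfl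

/-- A character sum over a finite additive group vanishes if the character is nontrivial. -/
theorem char_sum_zero {X : Type*} [AddGroup X] [Fintype X] (f : X → ℂ)
    (hf : ∀ x y, f (x + y) = f x * f y) (x₀ : X) (h : f x₀ ≠ 1) : ∑ x, f x = 0 := by
  refine eq_zero_of_mul_eq_self_left h ?_
  rw [Finset.mul_sum]
  exact Fintype.sum_equiv (Equiv.addLeft x₀) _ _ (fun y => (hf x₀ y).symm)

/-- Nontrivial `ψ`: some functional value is moved. -/
theorem exists_dot_ne_one {ψ : AddChar F ℂ} {c : F} (hc : ψ c ≠ 1) {φ : ι → F} (hφ : φ ≠ 0) :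
    ∃ v : ι → F, ψ (φ ⬝ᵥ v) ≠ 1 := by
  obtain ⟨i, hi⟩ : ∃ i, φ i ≠ 0 := by
    by_contra h
    push Not at h
    exact hφ (funext h)
  refine ⟨Pi.single i (c / φ i), ?_⟩
  rw [dotProduct_single]
  rwa [mul_div_cancel₀ _ hi]

theorem card_perp_mul {ψ : AddChar F ℂ} {c : F} (hc : ψ c ≠ 1) (S : AddSubgroup (ι → F)) :
    Nat.card (perp ψ S) * Nat.card S = Nat.card (ι → F) := by
  classical
  have hA : ∀ v : ι → F, ∑ φ : S, ψ ((φ : ι → F) ⬝ᵥ v) =
      if v ∈ perp ψ S then (Nat.card S : ℂ) else 0 := by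
    intro v
    split_ifs with hv
    · rw [Finset.sum_congr rfl (fun (φ : S) _ => hv φ φ.2)]
      simp [Nat.card_eq_fintype_card]
    · rw [mem_perp] at hv
      push Not at hv
      obtain ⟨φ, hφ, hne⟩ := hv
      refine char_sum_zero (fun φ : S => ψ ((φ : ι → F) ⬝ᵥ v)) ?_ ⟨φ, hφ⟩ hne
      intro x y
      simp only [AddSubgroup.coe_add, add_dotProduct, AddChar.map_add_eq_mul]
  have hB : ∀ φ : S, ∑ v : ι → F, ψ ((φ : ι → F) ⬝ᵥ v) =
      if (φ : ι → F) = 0 then (Nat.card (ι → F) : ℂ) else 0 := by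
    intro φ
    split_ifs with hφ
    · simp [hφ, Nat.card_eq_fintype_card]
    · obtain ⟨v, hv⟩ := exists_dot_ne_one hc hφ
      refine char_sum_zero (fun v : ι → F => ψ ((φ : ι → F) ⬝ᵥ v)) ?_ v hv
      intro x y
      simp only [dotProduct_add, AddChar.map_add_eq_mul]
  have h1 : ∑ v : ι → F, ∑ φ : S, ψ ((φ : ι → F) ⬝ᵥ v) = ((Nat.card (perp ψ S) * Nat.card S : ℕ) : ℂ) := by
    rw [Finset.sum_congr rfl (fun v _ => hA v), Finset.sum_ite, Finset.sum_const_zero, add_zero,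
      Finset.sum_const, nsmul_eq_mul]
    push_cast
    congr 2
    rw [Nat.card_eq_fintype_card, Fintype.card_subtype]
  have h2 : ∑ φ : S, ∑ v : ι → F, ψ ((φ : ι → F) ⬝ᵥ v) = (Nat.card (ι → F) : ℂ) := by
    rw [Finset.sum_congr rfl (fun φ _ => hB φ)]
    rw [Finset.sum_eq_single (0 : S)]
    · simp
    · intro b _ hb
      rw [if_neg]
      intro h
      exact hb (Subtype.ext h)
    · simp
  rw [Finset.sum_comm, h2] at h1
  exact_mod_cast h1.symm

theorem le_perp_perp (ψ : AddChar F ℂ) (S : AddSubgroup (ι → F)) : S ≤ perp ψ (perp ψ S) := by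
  intro φ hφ v hv
  rw [dotProduct_comm]
  exact hv φ hφ

/-- Double annihilator. -/
theorem perp_perp {ψ : AddChar F ℂ} {c : F} (hc : ψ c ≠ 1) (S : AddSubgroup (ι → F)) :
    perp ψ (perp ψ S) = S := by
  symm
  have h1 := card_perp_mul hc S
  have h2 := card_perp_mul hc (perp ψ S)
  have h3 : Nat.card (perp ψ (perp ψ S)) = Nat.card S := by
    have hpos : 0 < Nat.card (perp ψ S) := Nat.card_pos
    have : Nat.card (perp ψ (perp ψ S)) * Nat.card (perp ψ S) = Nat.card S * Nat.card (perp ψ S) := by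
      rw [h2, ← h1, mul_comm]
    exact Nat.eq_of_mul_eq_mul_right hpos this
  exact AddSubgroup.eq_of_le_of_card_ge (le_perp_perp ψ S) h3.le

/-- The annihilator of everything. -/
theorem perp_top {ψ : AddChar F ℂ} {c : F} (hc : ψ c ≠ 1) : perp ψ (⊤ : AddSubgroup (ι → F)) = ⊥ := by
  rw [eq_bot_iff]
  intro v hv
  rw [AddSubgroup.mem_bot]
  by_contra hne
  obtain ⟨w, hw⟩ := exists_dot_ne_one hc hne
  apply hw
  rw [dotProduct_comm]
  exact hv w (AddSubgroup.mem_top w)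

theorem perp_bot (ψ : AddChar F ℂ) : perp ψ (⊥ : AddSubgroup (ι → F)) = ⊤ := by
  rw [eq_top_iff]
  intro v _ φ hφ
  rw [AddSubgroup.mem_bot] at hφ
  simp [hφ]

/-- The line through `a`. -/
def line (a : ι → F) : AddSubgroup (ι → F) where
  carrier := {v | ∃ c : F, v = c • a}
  zero_mem' := ⟨0, by simp⟩
  add_mem' := by
    rintro _ _ ⟨c, rfl⟩ ⟨d, rfl⟩
    exact ⟨c + d, by rw [add_smul]⟩
  neg_mem' := by
    rintro _ ⟨c, rfl⟩
    exact ⟨-c, by rw [neg_smul]⟩

theorem mem_line {a v : ι → F} : v ∈ line a ↔ ∃ c : F, v = c • a := Iff.rfl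

/-- The functionals vanishing at `a`. -/
def Phi (a : ι → F) : AddSubgroup (ι → F) where
  carrier := {φ | φ ⬝ᵥ a = 0}
  zero_mem' := by simp
  add_mem' := by
    intro φ χ (h1 : φ ⬝ᵥ a = 0) (h2 : χ ⬝ᵥ a = 0)
    show (φ + χ) ⬝ᵥ a = 0
    rw [add_dotProduct, h1, h2, add_zero]
  neg_mem' := by
    intro φ (h1 : φ ⬝ᵥ a = 0)
    show (-φ) ⬝ᵥ a = 0
    rw [neg_dotProduct, h1, neg_zero]

theorem mem_Phi {a φ : ι → F} : φ ∈ Phi a ↔ φ ⬝ᵥ a = 0 := Iff.rfl

theorem perp_line {ψ : AddChar F ℂ} {c : F} (hc : ψ c ≠ 1) (a : ι → F) : perp ψ (line a) = Phi a := by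
  ext v
  rw [mem_perp, mem_Phi]
  constructor
  · intro h
    by_contra hne
    have hne' : a ⬝ᵥ v ≠ 0 := by rwa [dotProduct_comm]
    have := h (( c / (a ⬝ᵥ v)) • a) ⟨_, rfl⟩
    rw [smul_dotProduct, smul_eq_mul, div_mul_cancel₀ _ hne'] at this
    exact hc this
  · rintro h _ ⟨d, rfl⟩
    rw [smul_dotProduct, dotProduct_comm, h]
    simp

theorem perp_Phi {ψ : AddChar F ℂ} {c : F} (hc : ψ c ≠ 1) (a : ι → F) : perp ψ (Phi a) = line a := by
  rw [← perp_line hc a, perp_perp hc]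

theorem card_line {a : ι → F} (ha : a ≠ 0) : Nat.card (line a) = Fintype.card F := by
  rw [← Nat.card_eq_fintype_card]
  symm
  refine Nat.card_congr (Equiv.ofBijective (fun c : F => (⟨c • a, ⟨c, rfl⟩⟩ : line a)) ⟨?_, ?_⟩)
  · intro c d h
    have h' : c • a = d • a := congrArg Subtype.val h
    exact smul_left_injective F ha h'
  · rintro ⟨_, ⟨c, rfl⟩⟩
    exact ⟨c, rfl⟩

theorem card_Phi_mul {ψ : AddChar F ℂ} {c : F} (hc : ψ c ≠ 1) {a : ι → F} (ha : a ≠ 0) :
    Nat.card (Phi a) * Fintype.card F = Nat.card (ι → F) := by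
  rw [← card_line ha, ← perp_line hc a]
  exact card_perp_mul hc _

end Cfsg.Agent.Lib.MinIndex
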