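import Mathlib
import Cfsg.Agent.Lib.MinIndex.Dual
import Cfsg.Agent.Lib.Classical.KleinCount

/-! Orbits of the groups of transvections with a fixed centre on a finite `SL`-set. -/

set_option autoImplicit false
set_option linter.unusedSectionVars false
set_option linter.unusedSimpArgs false
set_option linter.unusedVariables false

namespace Cfsg.Agent.Lib.MinIndex

open Matrix

variable {ι : Type} [Fintype ι] [DecidableEq ι] {F : Type*} [Field F] [Fintype F]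
variable {Ω : Type*} [MulAction (SpecialLinearGroup ι F) Ω]

theorem tv_comm {a φ χ : ι → F} (h : φ ⬝ᵥ a = 0) (h' : χ ⬝ᵥ a = 0) : tv a φ * tv a χ = tv a χ * tv a φ := by
  rw [← tv_add h h', ← tv_add h' h, add_comm]

/-- The functionals whose transvection with centre `a` fixes `ω`. -/
def Sg (a : ι → F) (ω : Ω) : AddSubgroup (ι → F) where
  carrier := {φ | φ ⬝ᵥ a = 0 ∧ tv a φ • ω = ω}
  zero_mem' := ⟨by simp, by rw [tv_zero_right, one_smul]⟩
  add_mem' := by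
    rintro φ χ ⟨h1, h2⟩ ⟨h3, h4⟩
    refine ⟨by rw [add_dotProduct, h1, h3, add_zero], ?_⟩
    rw [tv_add h1 h3, mul_smul, h4, h2]
  neg_mem' := by
    rintro φ ⟨h1, h2⟩
    refine ⟨by rw [neg_dotProduct, h1, neg_zero], ?_⟩
    rw [tv_neg h1, inv_smul_eq_iff, h2]

theorem mem_Sg {a φ : ι → F} {ω : Ω} : φ ∈ Sg a ω ↔ φ ⬝ᵥ a = 0 ∧ tv a φ • ω = ω := Iff.rfl

/-- The dual subgroup of vectors. -/
def Tg (ψ : AddChar F ℂ) (a : ι → F) (ω : Ω) : AddSubgroup (ι → F) := perp ψ (Sg a ω)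

theorem mem_Tg {ψ : AddChar F ℂ} {a v : ι → F} {ω : Ω} :
    v ∈ Tg ψ a ω ↔ ∀ φ, φ ⬝ᵥ a = 0 → tv a φ • ω = ω → ψ (φ ⬝ᵥ v) = 1 :=
  ⟨fun h φ h1 h2 => h φ ⟨h1, h2⟩, fun h φ hφ => h φ hφ.1 hφ.2⟩

theorem line_le_Tg (ψ : AddChar F ℂ) (a : ι → F) (ω : Ω) : line a ≤ Tg ψ a ω := by
  rintro _ ⟨c, rfl⟩
  rw [mem_Tg]
  intro φ h1 _
  rw [dotProduct_smul, h1, smul_zero, AddChar.map_zero_eq_one]

variable (Ω) in
/-- Being in the same orbit of the group of transvections with centre `a`. -/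
def orel (a : ι → F) : Setoid Ω where
  r ω ω' := ∃ φ : ι → F, φ ⬝ᵥ a = 0 ∧ tv a φ • ω = ω'
  iseqv :=
    { refl := fun ω => ⟨0, by simp, by rw [tv_zero_right, one_smul]⟩
      symm := by
        rintro ω ω' ⟨φ, h1, rfl⟩
        refine ⟨-φ, by rw [neg_dotProduct, h1, neg_zero], ?_⟩
        rw [tv_neg h1, inv_smul_smul]
      trans := by
        rintro ω ω' ω'' ⟨φ, h1, rfl⟩ ⟨χ, h2, rfl⟩
        refine ⟨χ + φ, by rw [add_dotProduct, h1, h2, add_zero], ?_⟩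
        rw [tv_add h2 h1, mul_smul] }

theorem orel_iff {a : ι → F} {ω ω' : Ω} : (orel Ω a).r ω ω' ↔ ∃ φ : ι → F, φ ⬝ᵥ a = 0 ∧ tv a φ • ω = ω' := Iff.rfl

theorem Sg_le_of_rel {a : ι → F} {ω ω' : Ω} (h : (orel Ω a).r ω ω') : Sg a ω ≤ Sg a ω' := by
  obtain ⟨χ, h1, rfl⟩ := h
  rintro φ ⟨h2, h3⟩
  refine ⟨h2, ?_⟩
  rw [← mul_smul, tv_comm h2 h1, mul_smul, h3]

theorem Sg_eq_of_rel {a : ι → F} {ω ω' : Ω} (h : (orel Ω a).r ω ω') : Sg a ω = Sg a ω' :=
  le_antisymm (Sg_le_of_rel h) (Sg_le_of_rel ((orel Ω a).iseqv.symm h))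

theorem Tg_eq_of_rel {ψ : AddChar F ℂ} {a : ι → F} {ω ω' : Ω} (h : (orel Ω a).r ω ω') : Tg ψ a ω = Tg ψ a ω' := by
  unfold Tg
  rw [Sg_eq_of_rel h]

/-- Transport of stabilising functionals. -/
theorem Sg_act {a φ : ι → F} {ω : Ω} (g : SpecialLinearGroup ι F) (h : φ ∈ Sg a ω) :
    cact g φ ∈ Sg (act g a) (g • ω) := by
  obtain ⟨h1, h2⟩ := h
  refine ⟨by rw [cact_dot_act, h1], ?_⟩
  rw [← conj_tv g h1, mul_smul, mul_smul, inv_smul_smul, h2]

/-- Transport of the dual subgroup. -/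
theorem Tg_act {ψ : AddChar F ℂ} {a v : ι → F} {ω : Ω} (g : SpecialLinearGroup ι F) (h : v ∈ Tg ψ a ω) :
    act g v ∈ Tg ψ (act g a) (g • ω) := by
  intro χ hχ
  have h1 := Sg_act g⁻¹ hχ
  rw [act_inv_act, inv_smul_smul] at h1
  have h2 := h _ h1
  have h3 := cact_dot_act g⁻¹ χ (act g v)
  rw [act_inv_act] at h3
  rwa [h3] at h2

theorem orel_of_act {a : ι → F} {ω ω' : Ω} (g : SpecialLinearGroup ι F) (hg : act g a = a)
    (h : (orel Ω a).r (g • ω) (g • ω')) : (orel Ω a).r ω ω' := by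
  obtain ⟨χ, h1, h2⟩ := h
  have hg' : act g⁻¹ a = a := by
    conv_lhs => rw [← hg]
    exact act_inv_act g a
  refine ⟨cact g⁻¹ χ, ?_, ?_⟩
  · have := cact_dot_act g⁻¹ χ a
    rwa [hg', h1] at this
  · have h3 := conj_tv g⁻¹ h1
    rw [hg'] at h3
    rw [← h3, inv_inv, mul_smul, mul_smul, h2, inv_smul_smul]

theorem orel_act {a : ι → F} {ω ω' : Ω} (g : SpecialLinearGroup ι F) (hg : act g a = a)
    (h : (orel Ω a).r ω ω') : (orel Ω a).r (g • ω) (g • ω') := by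
  have hg' : act g⁻¹ a = a := by
    conv_lhs => rw [← hg]
    exact act_inv_act g a
  refine orel_of_act g⁻¹ hg' ?_
  rwa [inv_smul_smul, inv_smul_smul]

/-- Orbit stabiliser for the transvection group. -/
theorem card_orbit_mul [Finite Ω] (a : ι → F) (ω : Ω) :
    Nat.card (Phi a) = Nat.card {ω' // (orel Ω a).r ω ω'} * Nat.card (Sg a ω) := by
  let f : Phi a → {ω' // (orel Ω a).r ω ω'} := fun φ => ⟨tv a (φ : ι → F) • ω, ⟨φ, φ.2, rfl⟩⟩
  refine Cfsg.Agent.Lib.Classical.card_eq_mul_of_fibers f _ ?_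
  rintro ⟨_, ⟨χ, h1, rfl⟩⟩
  refine Nat.card_congr ⟨fun φ => ⟨(φ.1 : ι → F) - χ, ?_, ?_⟩, fun σ => ⟨⟨(σ : ι → F) + χ, ?_⟩, ?_⟩, ?_, ?_⟩
  · rw [sub_dotProduct, φ.1.2, h1, sub_zero]
  · have h2 : tv a (φ.1 : ι → F) • ω = tv a χ • ω := congrArg Subtype.val φ.2
    have h3 : (φ.1 : ι → F) ⬝ᵥ a = 0 := φ.1.2
    rw [sub_eq_add_neg, tv_add h3 (by rw [neg_dotProduct, h1, neg_zero]), tv_comm h3 (by rw [neg_dotProduct, h1, neg_zero]),
      mul_smul, h2, tv_neg h1, inv_smul_smul]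
  · show ((σ : ι → F) + χ) ⬝ᵥ a = 0
    rw [add_dotProduct, σ.2.1, h1, add_zero]
  · apply Subtype.ext
    show tv a ((σ : ι → F) + χ) • ω = tv a χ • ω
    rw [tv_add σ.2.1 h1, tv_comm σ.2.1 h1, mul_smul, σ.2.2]
  · intro φ
    apply Subtype.ext
    apply Subtype.ext
    show (φ.1 : ι → F) - χ + χ = φ.1
    rw [sub_add_cancel]
  · intro σ
    apply Subtype.ext
    show (σ : ι → F) + χ - χ = σ
    rw [add_sub_cancel_right]

/-- The size of the dual subgroup is `q` times the orbit length. -/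
theorem card_Tg [Finite Ω] {ψ : AddChar F ℂ} {c : F} (hc : ψ c ≠ 1) {a : ι → F} (ha : a ≠ 0) (ω : Ω) :
    Nat.card (Tg ψ a ω) = Fintype.card F * Nat.card {ω' // (orel Ω a).r ω ω'} := by
  have h1 := card_perp_mul hc (Sg a ω)
  have h2 := card_Phi_mul hc ha
  rw [card_orbit_mul a ω] at h2
  have hpos : 0 < Nat.card (Sg a ω) := Nat.card_pos
  have h3 : Nat.card (Tg ψ a ω) * Nat.card (Sg a ω) =
      (Fintype.card F * Nat.card {ω' // (orel Ω a).r ω ω'}) * Nat.card (Sg a ω) := by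
    show Nat.card (perp ψ (Sg a ω)) * _ = _
    rw [h1, ← h2]
    ring
  exact Nat.eq_of_mul_eq_mul_right hpos h3

/-- Summing over orbits. -/
theorem sum_card_Tg [Finite Ω] {ψ : AddChar F ℂ} {c : F} (hc : ψ c ≠ 1) {a : ι → F} (ha : a ≠ 0)
    [Fintype (Quotient (orel Ω a))] :
    ∑ O : Quotient (orel Ω a), Nat.card (Tg ψ a O.out) = Fintype.card F * Nat.card Ω := by
  classical
  have : Fintype Ω := Fintype.ofFinite Ω
  rw [Finset.sum_congr rfl (fun O _ => card_Tg hc ha O.out), ← Finset.mul_sum]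
  congr 1
  have h : ∀ O : Quotient (orel Ω a), Nat.card {ω' // (orel Ω a).r O.out ω'} =
      Fintype.card {ω' // Quotient.mk (orel Ω a) ω' = O} := by
    intro O
    rw [← Nat.card_eq_fintype_card]
    refine Nat.card_congr (Equiv.subtypeEquivRight ?_)
    intro ω'
    constructor
    · intro h
      rw [← Quotient.out_eq O]
      exact (Quotient.sound ((orel Ω a).iseqv.symm h))
    · intro h
      have h' : Quotient.mk (orel Ω a) ω' = Quotient.mk (orel Ω a) O.out := by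
        rw [h, Quotient.out_eq]
      exact (orel Ω a).iseqv.symm (Quotient.exact h')
  rw [Finset.sum_congr rfl (fun O _ => h O), Nat.card_eq_fintype_card]
  rw [← Fintype.card_sigma]
  exact Fintype.card_congr (Equiv.sigmaFiberEquiv (Quotient.mk (orel Ω a)))

end Cfsg.Agent.Lib.MinIndex
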