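import Mathlib
import Cfsg.Agent.Lib.MinIndex.Orbits
import Cfsg.Agent.Lib.ClassMax.Transv

/-! The covering property of the dual subgroups when the action is small. -/

set_option autoImplicit false
set_option linter.unusedSectionVars false
set_option linter.unusedSimpArgs false
set_option linter.unusedVariables false

namespace Cfsg.Agent.Lib.MinIndex

open Matrix Module
open Cfsg.Agent.Lib.ClassMax (exists_dotProduct_of_notMem)

variable {ι : Type} [Fintype ι] [DecidableEq ι] {F : Type*} [Field F] [Fintype F]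
variable {Ω : Type*} [MulAction (SpecialLinearGroup ι F) Ω]

theorem exists_notMem_span_pair (h3 : 3 ≤ Fintype.card ι) (a v : ι → F) :
    ∃ u : ι → F, u ∉ Submodule.span F ({a, v} : Set (ι → F)) := by
  classical
  by_contra h
  push Not at h
  have h1 : Submodule.span F ({a, v} : Set (ι → F)) = ⊤ := by
    rw [eq_top_iff]
    intro x _
    exact h x
  have h2 : finrank F (Submodule.span F ({a, v} : Set (ι → F))) ≤ 2 := by
    have := finrank_span_finset_le_card (R := F) ({a, v} : Finset (ι → F))
    simp only [Finset.coe_insert, Finset.coe_singleton] at this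
    exact this.trans Finset.card_le_two
  rw [h1, finrank_top, finrank_fintype_fun_eq_card] at h2
  omega

theorem notMem_line_iff {a v : ι → F} : v ∉ line a ↔ ∀ c : F, v ≠ c • a := by
  simp [mem_line]

theorem move_one {a v v' : ι → F} (hv : v ∉ line a)
    (hv' : v' ∉ Submodule.span F ({a, v} : Set (ι → F))) :
    ∃ g : SpecialLinearGroup ι F, act g a = a ∧ act g v = v' := by
  rw [notMem_line_iff] at hv
  have hx : v ∉ Submodule.span F ({a, v' - v} : Set (ι → F)) := by
    intro hm
    obtain ⟨α, β, hab⟩ := Submodule.mem_span_pair.1 hm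
    by_cases hβ : β = 0
    · subst hβ
      apply hv α
      rw [← hab]
      simp
    · apply hv'
      refine Submodule.mem_span_pair.2 ⟨-(β⁻¹ * α), β⁻¹ + 1, ?_⟩
      have e : β • (v' - v) = v - α • a := eq_sub_of_add_eq' hab
      have : v' - v = β⁻¹ • (v - α • a) := by
        rw [← e, smul_smul, inv_mul_cancel₀ hβ, one_smul]
      have h2 : v' = v + β⁻¹ • (v - α • a) := by
        rw [← this]; abel
      rw [h2, smul_sub, smul_smul, add_smul, one_smul, neg_smul]
      abel
  obtain ⟨θ, hθ, hθv⟩ := exists_dotProduct_of_notMem hx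
  have h1 : θ ⬝ᵥ a = 0 := hθ a (Submodule.subset_span (by simp))
  have h2 : θ ⬝ᵥ (v' - v) = 0 := hθ _ (Submodule.subset_span (by simp))
  refine ⟨tv (v' - v) θ, ?_, ?_⟩
  · simp only [act]
    rw [tv_mulVec h2, h1]
    simp
  · simp only [act]
    rw [tv_mulVec h2, hθv]
    simp

/-- The stabiliser of `a` is transitive outside the line of `a`. -/
theorem exists_fix_move (h3 : 3 ≤ Fintype.card ι) {a v v' : ι → F} (hv : v ∉ line a) (hv' : v' ∉ line a) :
    ∃ g : SpecialLinearGroup ι F, act g a = a ∧ act g v = v' := by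
  by_cases h : v' ∈ Submodule.span F ({a, v} : Set (ι → F))
  · obtain ⟨u, hu⟩ := exists_notMem_span_pair h3 a v
    obtain ⟨g₁, h1, h2⟩ := move_one hv hu
    have hul : u ∉ line a := by
      rintro ⟨c, rfl⟩
      exact hu (Submodule.smul_mem _ _ (Submodule.subset_span (by simp)))
    have hu' : v' ∉ Submodule.span F ({a, u} : Set (ι → F)) := by
      intro hm
      obtain ⟨α, β, hab⟩ := Submodule.mem_span_pair.1 hm
      by_cases hβ : β = 0
      · subst hβ
        apply hv'
        exact ⟨α, by rw [← hab]; simp⟩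
      · apply hu
        have : u = β⁻¹ • (v' - α • a) := by
          rw [← hab]
          simp [smul_smul, hβ]
        rw [this]
        refine Submodule.smul_mem _ _ (Submodule.sub_mem _ h (Submodule.smul_mem _ _ (Submodule.subset_span (by simp))))
    obtain ⟨g₂, h4, h5⟩ := move_one hul hu'
    refine ⟨g₂ * g₁, ?_, ?_⟩
    · rw [act_mul, h1, h4]
    · rw [act_mul, h2, h5]
  · exact move_one hv h

/-- Two-dimensional arithmetic: the count of the cover. -/
theorem unique_cover [Finite Ω] {ψ : AddChar F ℂ} {c : F} (hc : ψ c ≠ 1) (h3 : 3 ≤ Fintype.card ι)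
    (hN : Fintype.card F * Nat.card Ω < Fintype.card F + 2 * (Fintype.card F ^ Fintype.card ι - Fintype.card F))
    {a v : ι → F} (ha : a ≠ 0) (hv : v ∉ line a) {ω₁ ω₂ : Ω} (h1 : v ∈ Tg ψ a ω₁) (h2 : v ∈ Tg ψ a ω₂) :
    (orel Ω a).r ω₁ ω₂ := by
  classical
  by_contra hnr
  have : Fintype (Quotient (orel Ω a)) := Fintype.ofFinite _
  have hsum := sum_card_Tg hc ha (Ω := Ω)
  let X : (ι → F) → ℕ := fun w => (Finset.univ.filter (fun O : Quotient (orel Ω a) => w ∈ Tg ψ a O.out)).card
  have hT : ∀ ω : Ω, Tg ψ a (Quotient.mk (orel Ω a) ω).out = Tg ψ a ω := by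
    intro ω
    apply Tg_eq_of_rel
    exact Quotient.exact (Quotient.out_eq _)
  have h4 : ∑ O : Quotient (orel Ω a), Nat.card (Tg ψ a O.out) = ∑ w, X w := by
    simp only [X]
    simp_rw [Finset.card_filter]
    rw [Finset.sum_comm]
    refine Finset.sum_congr rfl (fun O _ => ?_)
    rw [Nat.card_eq_fintype_card, Fintype.card_subtype, Finset.card_filter]
  have h5 : ∀ w, w ∈ line a → 1 ≤ X w := by
    intro w hw
    refine Finset.card_pos.2 ⟨Quotient.mk (orel Ω a) ω₁, ?_⟩
    rw [Finset.mem_filter, hT]
    exact ⟨Finset.mem_univ _, line_le_Tg ψ a ω₁ hw⟩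
  have h6 : ∀ w, w ∉ line a → 2 ≤ X w := by
    intro w hw
    obtain ⟨g, hg1, hg2⟩ := exists_fix_move h3 hv hw
    have hne : Quotient.mk (orel Ω a) (g • ω₁) ≠ Quotient.mk (orel Ω a) (g • ω₂) := by
      intro he
      exact hnr (orel_of_act g hg1 (Quotient.exact he))
    refine Nat.succ_le_of_lt (Finset.one_lt_card.2 ⟨_, ?_, _, ?_, hne⟩)
    · rw [Finset.mem_filter, hT]
      refine ⟨Finset.mem_univ _, ?_⟩
      have := Tg_act g h1
      rwa [hg1, hg2] at this
    · rw [Finset.mem_filter, hT]
      refine ⟨Finset.mem_univ _, ?_⟩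
      have := Tg_act g h2
      rwa [hg1, hg2] at this
  have h7 : Fintype.card F + 2 * (Fintype.card F ^ Fintype.card ι - Fintype.card F) ≤ ∑ w, X w := by
    have h8 : ∀ w, (if w ∈ line a then 1 else 2) ≤ X w := by
      intro w
      split_ifs with hw
      · exact h5 w hw
      · exact h6 w hw
    refine le_trans ?_ (Finset.sum_le_sum (fun w _ => h8 w))
    rw [Finset.sum_ite, Finset.sum_const, Finset.sum_const, smul_eq_mul, smul_eq_mul, mul_one]
    have h9 : (Finset.univ.filter (fun w : ι → F => w ∈ line a)).card = Fintype.card F := by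
      rw [← card_line ha, Nat.card_eq_fintype_card, Fintype.card_subtype]
    have h10 : (Finset.univ.filter (fun w : ι → F => w ∉ line a)).card = Fintype.card F ^ Fintype.card ι - Fintype.card F := by
      rw [Finset.filter_not, Finset.card_sdiff_of_subset (Finset.filter_subset _ _), h9, Finset.card_univ, Fintype.card_fun]
    rw [h9, h10, mul_comm]
  rw [← h4, hsum] at h7
  omega

end Cfsg.Agent.Lib.MinIndex
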