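import Mathlib
import Cfsg.Agent.Lib.MinIndex.Cover
import Cfsg.Agent.Lib.Transv.Conj

/-! The shape of the dual subgroups. -/

set_option autoImplicit false
set_option linter.unusedSectionVars false
set_option linter.unusedSimpArgs false
set_option linter.unusedVariables false

namespace Cfsg.Agent.Lib.MinIndex

open Matrix Module
open Cfsg.Agent.Lib.ClassMax (exists_dotProduct_of_notMem)

variable {ι : Type} [Fintype ι] [DecidableEq ι] {F : Type*} [Field F] [Fintype F]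
variable {Ω : Type*} [MulAction (SpecialLinearGroup ι F) Ω]

/-- The covering property for the centre `a`. -/
def Covers (Ω : Type*) [MulAction (SpecialLinearGroup ι F) Ω] (ψ : AddChar F ℂ) (a : ι → F) : Prop :=
  ∀ (v : ι → F) (ω₁ ω₂ : Ω), v ∉ line a → v ∈ Tg ψ a ω₁ → v ∈ Tg ψ a ω₂ → (orel Ω a).r ω₁ ω₂

theorem Tg_step {ψ : AddChar F ℂ} {a v w x : ι → F} {ω : Ω} (hcov : Covers Ω ψ a) (hv : v ∉ line a)
    (hvT : v ∈ Tg ψ a ω) (hwT : w ∈ Tg ψ a ω) (hw : w ∉ Submodule.span F ({a, v, x} : Set (ι → F))) :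
    x ∈ Tg ψ a ω := by
  obtain ⟨θ, hθ, h4⟩ := exists_dotProduct_of_notMem hw
  have h1 : θ ⬝ᵥ a = 0 := hθ a (Submodule.subset_span (by simp))
  have h2 : θ ⬝ᵥ v = 0 := hθ v (Submodule.subset_span (by simp))
  have h3 : θ ⬝ᵥ x = 0 := hθ x (Submodule.subset_span (by simp))
  have ga : act (tv x θ) a = a := by
    simp only [act]
    rw [tv_mulVec h3, h1]
    simp
  have gv : act (tv x θ) v = v := by
    simp only [act]
    rw [tv_mulVec h3, h2]
    simp
  have gw : act (tv x θ) w = w + x := by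
    simp only [act]
    rw [tv_mulVec h3, h4]
    simp
  have A := Tg_act (tv x θ) hvT
  rw [ga, gv] at A
  have B := hcov v ω _ hv hvT A
  have C := Tg_act (tv x θ) hwT
  rw [ga, gw, ← Tg_eq_of_rel B] at C
  have := (Tg ψ a ω).sub_mem C hwT
  rwa [add_sub_cancel_left] at this

theorem Tg_top_of_two {ψ : AddChar F ℂ} {a v w : ι → F} {ω : Ω} (hcov : Covers Ω ψ a) (hv : v ∉ line a)
    (hvT : v ∈ Tg ψ a ω) (hwT : w ∈ Tg ψ a ω) (hw : w ∉ Submodule.span F ({a, v} : Set (ι → F))) :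
    Tg ψ a ω = ⊤ := by
  have hsmul : ∀ c : F, c • v ∈ Tg ψ a ω := by
    intro c
    refine Tg_step hcov hv hvT hwT ?_
    intro hm
    apply hw
    have hle : Submodule.span F ({a, v, c • v} : Set (ι → F)) ≤ Submodule.span F ({a, v} : Set (ι → F)) := by
      rw [Submodule.span_le]
      rintro y (rfl | rfl | rfl)
      · exact Submodule.subset_span (by simp)
      · exact Submodule.subset_span (by simp)
      · exact Submodule.smul_mem _ _ (Submodule.subset_span (by simp))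
    exact hle hm
  have hwl : w ∉ line a := by
    rintro ⟨c, rfl⟩
    exact hw (Submodule.smul_mem _ _ (Submodule.subset_span (by simp)))
  have hvw : v ∉ Submodule.span F ({a, w} : Set (ι → F)) := by
    intro hm
    obtain ⟨α, β, hab⟩ := Submodule.mem_span_pair.1 hm
    by_cases hβ : β = 0
    · subst hβ
      exact hv ⟨α, by rw [← hab]; simp⟩
    · apply hw
      have e : β • w = v - α • a := eq_sub_of_add_eq' hab
      have : w = β⁻¹ • (v - α • a) := by
        rw [← e, smul_smul, inv_mul_cancel₀ hβ, one_smul]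
      rw [this]
      exact Submodule.smul_mem _ _ (Submodule.sub_mem _ (Submodule.subset_span (by simp)) (Submodule.smul_mem _ _ (Submodule.subset_span (by simp))))
  have hsmul' : ∀ c : F, c • w ∈ Tg ψ a ω := by
    intro c
    refine Tg_step hcov hwl hwT hvT ?_
    intro hm
    apply hvw
    have hle : Submodule.span F ({a, w, c • w} : Set (ι → F)) ≤ Submodule.span F ({a, w} : Set (ι → F)) := by
      rw [Submodule.span_le]
      rintro y (rfl | rfl | rfl)
      · exact Submodule.subset_span (by simp)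
      · exact Submodule.subset_span (by simp)
      · exact Submodule.smul_mem _ _ (Submodule.subset_span (by simp))
    exact hle hm
  rw [eq_top_iff]
  intro x _
  by_cases hx : w ∈ Submodule.span F ({a, v, x} : Set (ι → F))
  · obtain ⟨α, β, γ, hab⟩ := Submodule.mem_span_triple.1 hx
    by_cases hγ : γ = 0
    · subst hγ
      exfalso
      apply hw
      rw [← hab]
      simp only [zero_smul, add_zero]
      exact Submodule.add_mem _ (Submodule.smul_mem _ _ (Submodule.subset_span (by simp))) (Submodule.smul_mem _ _ (Submodule.subset_span (by simp)))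
    · have e : γ • x = w - α • a - β • v := by
        rw [← hab]; abel
      have : x = γ⁻¹ • w - (γ⁻¹ * α) • a - (γ⁻¹ * β) • v := by
        have h' : x = γ⁻¹ • (γ • x) := by rw [smul_smul, inv_mul_cancel₀ hγ, one_smul]
        rw [h', e, smul_sub, smul_sub, smul_smul, smul_smul]
      rw [this]
      refine AddSubgroup.sub_mem _ (AddSubgroup.sub_mem _ (hsmul' _) ?_) (hsmul _)
      exact line_le_Tg ψ a ω ⟨_, rfl⟩
  · exact Tg_step hcov hv hvT hwT hx

theorem fix_of_forall {ψ : AddChar F ℂ} {c : F} (hc : ψ c ≠ 1) {a φ : ι → F} {ω : Ω} (h0 : φ ⬝ᵥ a = 0)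
    (h : ∀ x ∈ Tg ψ a ω, φ ⬝ᵥ x = 0) : tv a φ • ω = ω := by
  have h1 : φ ∈ perp ψ (Tg ψ a ω) := by
    intro x hx
    rw [dotProduct_comm, h x hx, AddChar.map_zero_eq_one]
  have h2 : φ ∈ Sg a ω := by
    have := perp_perp hc (Sg a ω)
    unfold Tg at h1
    rwa [this] at h1
  exact h2.2

/-- The two shapes of the dual subgroup. -/
theorem Tg_dichotomy {ψ : AddChar F ℂ} {c : F} (hc : ψ c ≠ 1) (h3 : 3 ≤ Fintype.card ι) {a : ι → F}
    (hcov : Covers Ω ψ a) (ω : Ω) :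
    Tg ψ a ω = ⊤ ∨ ∃ v : ι → F, v ∉ line a ∧ ∀ φ : ι → F, φ ⬝ᵥ a = 0 → φ ⬝ᵥ v = 0 → tv a φ • ω = ω := by
  by_cases h : ∃ v ∈ Tg ψ a ω, v ∉ line a
  · obtain ⟨v, hvT, hv⟩ := h
    by_cases h' : ∃ w ∈ Tg ψ a ω, w ∉ Submodule.span F ({a, v} : Set (ι → F))
    · obtain ⟨w, hwT, hw⟩ := h'
      exact Or.inl (Tg_top_of_two hcov hv hvT hwT hw)
    · push Not at h'
      refine Or.inr ⟨v, hv, fun φ h1 h2 => fix_of_forall hc h1 (fun x hx => ?_)⟩
      obtain ⟨α, β, rfl⟩ := Submodule.mem_span_pair.1 (h' x hx)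
      rw [dotProduct_add, dotProduct_smul, dotProduct_smul, h1, h2]
      simp
  · push Not at h
    obtain ⟨u, hu⟩ := exists_notMem_span_pair h3 a a
    have hul : u ∉ line a := by
      rintro ⟨c, rfl⟩
      exact hu (Submodule.smul_mem _ _ (Submodule.subset_span (by simp)))
    refine Or.inr ⟨u, hul, fun φ h1 _ => fix_of_forall hc h1 (fun x hx => ?_)⟩
    obtain ⟨d, rfl⟩ := h x hx
    rw [dotProduct_smul, h1, smul_zero]

/-- If one orbit is regular, all the others are fixed points or that orbit. -/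
theorem fix_all_of_regular {ψ : AddChar F ℂ} {c : F} (hc : ψ c ≠ 1) {a : ι → F}
    (hcov : Covers Ω ψ a) {ω₁ : Ω} (h1 : Tg ψ a ω₁ = ⊤) (ω₂ : Ω) :
    Tg ψ a ω₂ = ⊤ ∨ ∀ φ : ι → F, φ ⬝ᵥ a = 0 → tv a φ • ω₂ = ω₂ := by
  by_cases h : ∃ v ∈ Tg ψ a ω₂, v ∉ line a
  · obtain ⟨v, hvT, hv⟩ := h
    left
    have := hcov v ω₁ ω₂ hv (by rw [h1]; exact AddSubgroup.mem_top v) hvT
    rw [← Tg_eq_of_rel this, h1]
  · push Not at h
    refine Or.inr (fun φ h0 => fix_of_forall hc h0 (fun x hx => ?_))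
    obtain ⟨d, rfl⟩ := h x hx
    rw [dotProduct_smul, h0, smul_zero]

theorem Sg_eq_bot_of_top {ψ : AddChar F ℂ} {c : F} (hc : ψ c ≠ 1) {a : ι → F} {ω : Ω} (h : Tg ψ a ω = ⊤) :
    Sg a ω = ⊥ := by
  rw [← perp_perp hc (Sg a ω)]
  show perp ψ (Tg ψ a ω) = ⊥
  rw [h, perp_top hc]

theorem Tg_top_of_bot {ψ : AddChar F ℂ} {a : ι → F} {ω : Ω} (h : Sg a ω = ⊥) : Tg ψ a ω = ⊤ := by
  unfold Tg
  rw [h, perp_bot]

/-- Transport of regularity. -/
theorem Tg_top_act {ψ : AddChar F ℂ} {a : ι → F} {ω : Ω} (g : SpecialLinearGroup ι F) (h : Tg ψ a ω = ⊤) :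
    Tg ψ (act g a) (g • ω) = ⊤ := by
  rw [eq_top_iff]
  intro v _
  have := Tg_act g (by rw [h]; exact AddSubgroup.mem_top (act g⁻¹ v) : act g⁻¹ v ∈ Tg ψ a ω)
  rwa [act_act_inv] at this

/-- Every nonzero vector is the image of any other one. -/
theorem exists_act_eq (h3 : 3 ≤ Fintype.card ι) {a b : ι → F} (ha : a ≠ 0) (hb : b ≠ 0) :
    ∃ g : SpecialLinearGroup ι F, act g a = b := by
  obtain ⟨u, hu⟩ := exists_notMem_span_pair h3 a a
  obtain ⟨u', hu'⟩ := exists_notMem_span_pair h3 b b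
  have hnz : ∀ {x y : ι → F}, x ∉ Submodule.span F ({y, y} : Set (ι → F)) → ∃ θ : ι → F, θ ≠ 0 ∧ θ ⬝ᵥ y = 0 := by
    intro x y hx
    obtain ⟨θ, h1, h2⟩ := exists_dotProduct_of_notMem hx
    refine ⟨θ, ?_, h1 y (Submodule.subset_span (by simp))⟩
    rintro rfl
    simp at h2
  obtain ⟨θ, hθ, h1⟩ := hnz hu
  obtain ⟨θ', hθ', h2⟩ := hnz hu'
  obtain ⟨g, hg, _⟩ := Cfsg.Agent.Lib.Transv.exists_SL_of_pairs ha hb hθ hθ' h1 h2 h3
  exact ⟨g, hg⟩

section Quotient

variable (H : Subgroup (SpecialLinearGroup ι F))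

theorem tv_smul_base {a φ : ι → F} :
    tv a φ • (QuotientGroup.mk 1 : SpecialLinearGroup ι F ⧸ H) = QuotientGroup.mk 1 ↔ tv a φ ∈ H := by
  show (QuotientGroup.mk (tv a φ * 1) : SpecialLinearGroup ι F ⧸ H) = QuotientGroup.mk 1 ↔ _
  rw [mul_one, QuotientGroup.eq, mul_one]
  exact inv_mem_iff

instance finiteQuot : Finite (SpecialLinearGroup ι F ⧸ H) := by
  have : Finite (SpecialLinearGroup ι F) := Finite.of_injective (fun g => g.1) Subtype.val_injective
  exact Quotient.finite _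

/-- The main consequence: local structure at each centre. -/
theorem L_of_tv {ψ : AddChar F ℂ} {c : F} (hc : ψ c ≠ 1) (h3 : 3 ≤ Fintype.card ι)
    (hN : Fintype.card F * H.index < Fintype.card F + 2 * (Fintype.card F ^ Fintype.card ι - Fintype.card F))
    (hFP : ∀ b : ι → F, b ≠ 0 → ¬ ∀ φ : ι → F, φ ⬝ᵥ b = 0 → tv b φ ∈ H)
    {b θ : ι → F} (hb : b ≠ 0) (hθ : θ ≠ 0) (hb0 : θ ⬝ᵥ b = 0) (htv : tv b θ ∈ H) :
    ∀ a : ι → F, a ≠ 0 → ∃ a' : ι → F, a' ∉ line a ∧ ∀ φ : ι → F, φ ⬝ᵥ a = 0 → φ ⬝ᵥ a' = 0 → tv a φ ∈ H := by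
  have hcov : ∀ a : ι → F, a ≠ 0 → Covers (SpecialLinearGroup ι F ⧸ H) ψ a := by
    intro a ha v ω₁ ω₂ hv h1 h2
    exact unique_cover hc h3 hN ha hv h1 h2
  have hno : ∀ (a : ι → F) (ω : SpecialLinearGroup ι F ⧸ H), a ≠ 0 → Tg ψ a ω ≠ ⊤ := by
    intro a ω ha htop
    obtain ⟨g, hg⟩ := exists_act_eq h3 ha hb
    have h1 := Tg_top_act g htop
    rw [hg] at h1
    rcases fix_all_of_regular hc (hcov b hb) h1 (QuotientGroup.mk 1) with h2 | h2
    · have h4 := Sg_eq_bot_of_top hc h2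
      have h5 : θ ∈ Sg b (QuotientGroup.mk 1 : SpecialLinearGroup ι F ⧸ H) :=
        ⟨hb0, (tv_smul_base H).2 htv⟩
      rw [h4, AddSubgroup.mem_bot] at h5
      exact hθ h5
    · exact hFP b hb (fun φ h0 => (tv_smul_base H).1 (h2 φ h0))
  intro a ha
  rcases Tg_dichotomy hc h3 (hcov a ha) (QuotientGroup.mk 1) with h | ⟨v, hv, h⟩
  · exact absurd h (hno a _ ha)
  · exact ⟨v, hv, fun φ h1 h2 => (tv_smul_base H).1 (h φ h1 h2)⟩

/-- If `H` contains no transvection, the group of transvections with a given centre is transitive on the cosets. -/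
theorem transitive_of_no_tv {ψ : AddChar F ℂ} {c : F} (hc : ψ c ≠ 1) (h3 : 3 ≤ Fintype.card ι)
    (hN : Fintype.card F * H.index < Fintype.card F + 2 * (Fintype.card F ^ Fintype.card ι - Fintype.card F))
    (hnt : ∀ x φ : ι → F, x ≠ 0 → φ ≠ 0 → φ ⬝ᵥ x = 0 → tv x φ ∉ H)
    {a : ι → F} (ha : a ≠ 0) (g : SpecialLinearGroup ι F) :
    ∃ φ : ι → F, φ ⬝ᵥ a = 0 ∧ tv a φ * g ∈ H := by
  have hbot : ∀ ω : SpecialLinearGroup ι F ⧸ H, Tg ψ a ω = ⊤ := by
    intro ω
    apply Tg_top_of_bot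
    rw [eq_bot_iff]
    rintro φ ⟨h0, h1⟩
    rw [AddSubgroup.mem_bot]
    obtain ⟨r, rfl⟩ := QuotientGroup.mk_surjective ω
    by_contra hφ
    have h2 : (QuotientGroup.mk (tv a φ * r) : SpecialLinearGroup ι F ⧸ H) = QuotientGroup.mk r := h1
    rw [QuotientGroup.eq] at h2
    have hn0 : (-φ) ⬝ᵥ a = 0 := by rw [neg_dotProduct, h0, neg_zero]
    have e : (tv a φ * r)⁻¹ * r = r⁻¹ * tv a (-φ) * r⁻¹⁻¹ := by
      rw [tv_neg h0]
      group
    rw [e, conj_tv r⁻¹ hn0] at h2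
    refine hnt _ _ (act_ne_zero _ ha) ?_ ?_ h2
    · intro hz
      apply hφ
      have := cact_cact_inv r (-φ)
      rw [hz] at this
      simp only [cact, zero_vecMul] at this
      exact neg_eq_zero.1 this.symm
    · rw [cact_dot_act, hn0]
  obtain ⟨u, hu⟩ := exists_notMem_span_pair h3 a a
  have hul : u ∉ line a := by
    rintro ⟨c, rfl⟩
    exact hu (Submodule.smul_mem _ _ (Submodule.subset_span (by simp)))
  have hm : ∀ ω : SpecialLinearGroup ι F ⧸ H, u ∈ Tg ψ a ω := fun ω => by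
    rw [hbot]; exact AddSubgroup.mem_top u
  obtain ⟨φ, h0, h1⟩ := unique_cover (Ω := SpecialLinearGroup ι F ⧸ H) hc h3 hN ha hul
    (hm (QuotientGroup.mk 1)) (hm (QuotientGroup.mk g))
  refine ⟨-φ, by rw [neg_dotProduct, h0, neg_zero], ?_⟩
  have h2 : (QuotientGroup.mk (tv a φ * 1) : SpecialLinearGroup ι F ⧸ H) = QuotientGroup.mk g := h1
  rw [mul_one, QuotientGroup.eq] at h2
  rw [tv_neg h0]
  exact h2

end Quotient

end Cfsg.Agent.Lib.MinIndex
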