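import Mathlib
import Cfsg.Agent.Lib.MinIndex.Shape
import Cfsg.Agent.Lib.Classical.Frames
import Cfsg.Agent.Lib.RegUnip.Cyclic

/-! A subgroup containing all transvections with a given centre stabilises a proper subspace, and its
index is at least the number of points. -/

set_option autoImplicit false
set_option linter.unusedSectionVars false
set_option linter.unusedSimpArgs false
set_option linter.unusedVariables false

namespace Cfsg.Agent.Lib.MinIndex

open Matrix Module
open Cfsg.Agent.Lib.ClassMax (exists_dotProduct_of_notMem)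

variable {ι : Type} [Fintype ι] [DecidableEq ι] {F : Type*} [Field F]

/-- The centres of the full transvection groups contained in `H`. -/
def centres (H : Subgroup (SpecialLinearGroup ι F)) : Submodule F (ι → F) where
  carrier := {c | ∀ φ : ι → F, φ ⬝ᵥ c = 0 → tv c φ ∈ H}
  zero_mem' := by
    intro φ _
    rw [tv_zero_left]
    exact H.one_mem
  smul_mem' := by
    intro r c hc φ hφ
    by_cases hr : r = 0
    · subst hr
      rw [zero_smul, tv_zero_left]
      exact H.one_mem
    · rw [tv_smul_left]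
      rw [dotProduct_smul, smul_eq_mul] at hφ
      have h0 : φ ⬝ᵥ c = 0 := (mul_eq_zero.1 hφ).resolve_left hr
      exact hc _ (by rw [smul_dotProduct, h0, smul_zero])
  add_mem' := by
    intro x y hx hy φ hφ
    by_cases hxy : x ∈ Submodule.span F ({y} : Set (ι → F))
    · obtain ⟨r, rfl⟩ := Submodule.mem_span_singleton.1 hxy
      have e : r • y + y = (r + 1) • y := by rw [add_smul, one_smul]
      rw [e] at hφ ⊢
      by_cases hr : r + 1 = 0
      · rw [hr, zero_smul, tv_zero_left]
        exact H.one_mem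
      · rw [tv_smul_left]
        rw [dotProduct_smul, smul_eq_mul] at hφ
        have h0 : φ ⬝ᵥ y = 0 := (mul_eq_zero.1 hφ).resolve_left hr
        exact hy _ (by rw [smul_dotProduct, h0, smul_zero])
    · obtain ⟨θ, hθ, hθx⟩ := exists_dotProduct_of_notMem hxy
      have h1 : θ ⬝ᵥ y = 0 := hθ y (Submodule.subset_span (by simp))
      have hτ : tv y θ ∈ H := hy θ h1
      have e : act (tv y θ) x = x + y := by
        simp only [act]
        rw [tv_mulVec h1, hθx, one_smul]
      have h2 : cact (tv y θ)⁻¹ φ ⬝ᵥ x = 0 := by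
        have := cact_dot_act (tv y θ)⁻¹ φ (act (tv y θ) x)
        rw [act_inv_act, e, hφ] at this
        exact this
      have h3 := conj_tv (tv y θ) h2
      rw [e, cact_cact_inv] at h3
      rw [← h3]
      exact H.mul_mem (H.mul_mem hτ (hx _ h2)) (H.inv_mem hτ)

theorem mem_centres {H : Subgroup (SpecialLinearGroup ι F)} {c : ι → F} :
    c ∈ centres H ↔ ∀ φ : ι → F, φ ⬝ᵥ c = 0 → tv c φ ∈ H := Iff.rfl

theorem act_mem_centres {H : Subgroup (SpecialLinearGroup ι F)} {h : SpecialLinearGroup ι F} (hh : h ∈ H)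
    {c : ι → F} (hc : c ∈ centres H) : act h c ∈ centres H := by
  intro φ hφ
  have h2 : cact h⁻¹ φ ⬝ᵥ c = 0 := by
    have := cact_dot_act h⁻¹ φ (act h c)
    rw [act_inv_act, hφ] at this
    exact this
  have h3 := conj_tv h h2
  rw [cact_cact_inv] at h3
  rw [← h3]
  exact H.mul_mem (H.mul_mem hh (hc _ h2)) (H.inv_mem hh)

/-- The image of a subspace. -/
def mapG (g : SpecialLinearGroup ι F) (U : Submodule F (ι → F)) : Submodule F (ι → F) :=
  U.map (Matrix.mulVecLin (g : Matrix ι ι F))

theorem mem_mapG {g : SpecialLinearGroup ι F} {U : Submodule F (ι → F)} {x : ι → F} :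
    x ∈ mapG g U ↔ ∃ u ∈ U, act g u = x := by
  simp [mapG, Submodule.mem_map]

/-- The special linear group is transitive on proper subspaces of a given dimension. -/
theorem exists_map_eq {U W : Submodule F (ι → F)} (hk : finrank F U = finrank F W) (hU : U ≠ ⊤) :
    ∃ g : SpecialLinearGroup ι F, mapG g U = W := by
  classical
  obtain ⟨U', hU'⟩ := Submodule.exists_isCompl U
  obtain ⟨W', hW'⟩ := Submodule.exists_isCompl W
  have h1 := Submodule.finrank_add_eq_of_isCompl hU'
  have h2 := Submodule.finrank_add_eq_of_isCompl hW'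
  let e₁ : U ≃ₗ[F] W := LinearEquiv.ofFinrankEq _ _ hk
  let e₂ : U' ≃ₗ[F] W' := LinearEquiv.ofFinrankEq _ _ (by omega)
  let e : (ι → F) ≃ₗ[F] (ι → F) := (Submodule.prodEquivOfIsCompl U U' hU').symm ≪≫ₗ (e₁.prodCongr e₂) ≪≫ₗ
    (Submodule.prodEquivOfIsCompl W W' hW')
  have he : ∀ u : U, e u = e₁ u := by
    intro u
    simp only [e, LinearEquiv.trans_apply]
    rw [Submodule.prodEquivOfIsCompl_symm_apply_left]
    simp
  let G₀ := Cfsg.Agent.Lib.RegUnip.glOfEquiv e
  have hG₀ : ∀ v, (G₀ : Matrix ι ι F) *ᵥ v = e v := Cfsg.Agent.Lib.RegUnip.glOfEquiv_mulVec e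
  have hdet : (G₀ : Matrix ι ι F).det ≠ 0 := by
    have := G₀.isUnit
    exact (Matrix.isUnit_iff_isUnit_det _ |>.1 this).ne_zero
  have hW : W ≠ ⊤ := by
    rintro rfl
    apply hU
    apply Submodule.eq_top_of_finrank_eq
    rw [hk, finrank_top]
  obtain ⟨x, hx⟩ : ∃ x, x ∉ W := by
    by_contra h
    push Not at h
    exact hW (eq_top_iff.2 (fun y _ => h y))
  obtain ⟨θ, hθ, hθx⟩ := exists_dotProduct_of_notMem hx
  set δ := (G₀ : Matrix ι ι F).det with hδ
  let D : Matrix ι ι F := 1 + vecMulVec ((δ⁻¹ - 1) • x) θ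
  have hD : D.det = δ⁻¹ := by
    simp only [D]
    rw [vecMulVec_eq Unit, det_one_add_replicateCol_mul_replicateRow, dotProduct_smul, hθx]
    simp
  have hDw : ∀ w ∈ W, D *ᵥ w = w := by
    intro w hw
    simp only [D]
    rw [add_mulVec, one_mulVec, vecMulVec_mulVec, hθ w hw]
    simp
  obtain ⟨g, hg⟩ : ∃ g : SpecialLinearGroup ι F, (g : Matrix ι ι F) = D * (G₀ : Matrix ι ι F) :=
    ⟨⟨D * (G₀ : Matrix ι ι F), by rw [det_mul, hD, inv_mul_cancel₀ hdet]⟩, rfl⟩
  refine ⟨g, ?_⟩
  have hact : ∀ u : U, act g (u : ι → F) = e₁ u := by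
    intro u
    simp only [act]
    rw [hg, ← mulVec_mulVec, hG₀, he, hDw _ (e₁ u).2]
  ext y
  rw [mem_mapG]
  constructor
  · rintro ⟨u, hu, rfl⟩
    rw [hact ⟨u, hu⟩]
    exact (e₁ ⟨u, hu⟩).2
  · intro hy
    refine ⟨(e₁.symm ⟨y, hy⟩ : U), (e₁.symm ⟨y, hy⟩).2, ?_⟩
    rw [hact]
    simp

theorem mapG_le_of_mem {H : Subgroup (SpecialLinearGroup ι F)} {h : SpecialLinearGroup ι F} (hh : h ∈ H) :
    mapG h (centres H) ≤ centres H := by
  intro x hx
  obtain ⟨u, hu, rfl⟩ := mem_mapG.1 hx
  exact act_mem_centres hh hu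

theorem finrank_mapG (g : SpecialLinearGroup ι F) (U : Submodule F (ι → F)) : finrank F (mapG g U) = finrank F U := by
  have hinj : Function.Injective (Matrix.mulVecLin (g : Matrix ι ι F)) := by
    intro x y h
    have h' : act g x = act g y := h
    have := congrArg (act g⁻¹) h'
    rwa [act_inv_act, act_inv_act] at this
  exact (Submodule.equivMapOfInjective _ hinj U).finrank_eq.symm

/-- The arithmetic of the number of subspaces. -/
theorem points_mul_le (q n k : ℕ) (hq : 2 ≤ q) (hk : 1 ≤ k) (hkn : k < n) :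
    ((q ^ n - 1) / (q - 1)) * ∏ i : Fin k, (q ^ k - q ^ (i : ℕ)) ≤ ∏ i : Fin k, (q ^ n - q ^ (i : ℕ)) := by
  obtain ⟨m, rfl⟩ : ∃ m, k = m + 1 := ⟨k - 1, by omega⟩
  rw [Fin.prod_univ_eq_prod_range (fun i => q ^ (m + 1) - q ^ i) (m + 1),
    Fin.prod_univ_eq_prod_range (fun i => q ^ n - q ^ i) (m + 1),
    Finset.prod_range_succ, Finset.prod_range_succ', pow_zero]
  set A := ∏ i ∈ Finset.range m, (q ^ (m + 1) - q ^ i) with hA
  have h1 : q ^ m * A ≤ ∏ i ∈ Finset.range m, (q ^ n - q ^ (i + 1)) := by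
    have h2 : q ^ m * A = ∏ i ∈ Finset.range m, (q * (q ^ (m + 1) - q ^ i)) := by
      rw [Finset.prod_mul_distrib, Finset.prod_const, Finset.card_range]
    rw [h2]
    refine Finset.prod_le_prod' (fun i _ => ?_)
    rw [Nat.mul_sub, ← pow_succ', ← pow_succ']
    refine Nat.sub_le_sub_right (Nat.pow_le_pow_right (by omega) (by omega)) _
  have h3 : (q ^ n - 1) / (q - 1) * (q - 1) = q ^ n - 1 := by
    apply Nat.div_mul_cancel
    have := Nat.sub_dvd_pow_sub_pow q 1 n
    rwa [one_pow] at this
  have h4 : q ^ (m + 1) - q ^ m = q ^ m * (q - 1) := by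
    rw [Nat.mul_sub, mul_one, pow_succ]
  rw [h4]
  calc (q ^ n - 1) / (q - 1) * (A * (q ^ m * (q - 1)))
      = ((q ^ n - 1) / (q - 1) * (q - 1)) * (q ^ m * A) := by ring
    _ = (q ^ n - 1) * (q ^ m * A) := by rw [h3]
    _ ≤ (q ^ n - 1) * ∏ i ∈ Finset.range m, (q ^ n - q ^ (i + 1)) := Nat.mul_le_mul_left _ h1
    _ = _ := by ring

section Count

variable [Fintype F]

/-- The number of `k`-subspaces is at least the number of points. -/
theorem points_le_card_subspaces {k : ℕ} (hk : 1 ≤ k) (hkn : k < Fintype.card ι) :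
    (Fintype.card F ^ Fintype.card ι - 1) / (Fintype.card F - 1) ≤
      Nat.card {W : Submodule F (ι → F) // finrank F W = k ∧ True} := by
  have h1 := Cfsg.Agent.Lib.Classical.card_subspaces_mul (F := F) (V := ι → F) k (fun _ => True)
  have h2 := card_linearIndependent (K := F) (V := ι → F) (k := k) (by
    rw [finrank_fintype_fun_eq_card]; omega)
  have h5 : Nat.card {s : Fin k → (ι → F) // LinearIndependent F s ∧ True} =
      Nat.card {s : Fin k → (ι → F) // LinearIndependent F s} := by
    refine Nat.card_congr (Equiv.subtypeEquivRight (fun s => by simp))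
  rw [h5, h2, finrank_fintype_fun_eq_card] at h1
  have hq : 2 ≤ Fintype.card F := Fintype.one_lt_card
  have h3 := points_mul_le (Fintype.card F) (Fintype.card ι) k hq hk hkn
  rw [← h1] at h3
  have hpos : 0 < ∏ i : Fin k, (Fintype.card F ^ k - Fintype.card F ^ (i : ℕ)) := by
    refine Finset.prod_pos (fun i _ => Nat.sub_pos_of_lt (Nat.pow_lt_pow_right (by omega) i.2))
  exact Nat.le_of_mul_le_mul_right h3 hpos

/-- The fixed point lemma: a proper subgroup containing all transvections with a given centre has index at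
least the number of points. -/
theorem points_le_index (H : Subgroup (SpecialLinearGroup ι F)) (hH : H ≠ ⊤) {b : ι → F} (hb : b ≠ 0)
    (hA : ∀ φ : ι → F, φ ⬝ᵥ b = 0 → tv b φ ∈ H) :
    (Fintype.card F ^ Fintype.card ι - 1) / (Fintype.card F - 1) ≤ H.index := by
  classical
  have hU : centres H ≠ ⊤ := by
    intro h
    apply hH
    apply eq_top_of_tv
    intro x φ hφ
    have : x ∈ centres H := by rw [h]; trivial
    exact this φ hφ
  have hbU : b ∈ centres H := hA
  have hk1 : 1 ≤ finrank F (centres H) := by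
    rw [Nat.succ_le_iff, Module.finrank_pos_iff_exists_ne_zero]
    exact ⟨⟨b, hbU⟩, fun h => hb (congrArg Subtype.val h)⟩
  have hk2 : finrank F (centres H) < Fintype.card ι := by
    have := Submodule.finrank_lt hU
    rwa [finrank_fintype_fun_eq_card] at this
  refine (points_le_card_subspaces hk1 hk2).trans ?_
  have hex : ∀ W : {W : Submodule F (ι → F) // finrank F W = finrank F (centres H) ∧ True},
      ∃ g : SpecialLinearGroup ι F, mapG g (centres H) = W.1 :=
    fun W => exists_map_eq W.2.1.symm hU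
  choose g hg using hex
  let f : {W : Submodule F (ι → F) // finrank F W = finrank F (centres H) ∧ True} →
      SpecialLinearGroup ι F ⧸ H := fun W => QuotientGroup.mk (g W)
  have hle : ∀ W W', f W = f W' → W'.1 ≤ W.1 := by
    intro W W' hf x hx
    rw [← hg W'] at hx
    obtain ⟨u, hu, rfl⟩ := mem_mapG.1 hx
    have h1 : (g W)⁻¹ * g W' ∈ H := QuotientGroup.eq.1 hf
    rw [← hg W]
    refine mem_mapG.2 ⟨act ((g W)⁻¹ * g W') u, act_mem_centres h1 hu, ?_⟩
    rw [← act_mul, mul_inv_cancel_left]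
  have hinj : Function.Injective f := by
    intro W W' hf
    apply Subtype.ext
    refine Submodule.eq_of_le_of_finrank_eq (hle W' W hf.symm) ?_
    rw [W.2.1, W'.2.1]
  exact Nat.card_le_card_of_injective f hinj

end Count

end Cfsg.Agent.Lib.MinIndex
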