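import Mathlib
import Cfsg.Agent.Lib.MinIndex.FP
import Cfsg.Agent.Lib.MinIndex.Cocycle
import Cfsg.Agent.Lib.AutPSL.Image

/-! The minimal index of a proper subgroup of the special linear group. -/

set_option autoImplicit false
set_option linter.unusedSectionVars false
set_option linter.unusedSimpArgs false
set_option linter.unusedVariables false

namespace Cfsg.Agent.Lib.MinIndex

open Matrix Module
open Cfsg.Agent.Lib.ClassMax (exists_dotProduct_of_notMem)

variable {ι : Type} [Fintype ι] [DecidableEq ι] {F : Type*} [Field F] [Fintype F]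

theorem points_bound (q n : ℕ) (hq : 2 ≤ q) (hn : 1 ≤ n) :
    (q ^ n - 1) / (q - 1) ≤ 2 * q ^ (n - 1) - 1 := by
  obtain ⟨r, rfl⟩ : ∃ r, q = r + 2 := ⟨q - 2, by omega⟩
  obtain ⟨m, rfl⟩ : ∃ m, n = m + 1 := ⟨n - 1, by omega⟩
  have hpos : 0 < (r + 2) ^ m := by positivity
  obtain ⟨P, hP⟩ : ∃ P, (r + 2) ^ m = P + 1 := ⟨(r + 2) ^ m - 1, by omega⟩
  simp only [add_tsub_cancel_right]
  rw [pow_succ, hP]
  have e1 : r + 2 - 1 = r + 1 := by omega
  rw [e1]
  apply Nat.div_le_of_le_mul
  have e2 : 2 * (P + 1) - 1 = 2 * P + 1 := by omega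
  rw [e2]
  have e3 : (P + 1) * (r + 2) - 1 = (r + 2) * P + r + 1 := by
    have : (P + 1) * (r + 2) = (r + 2) * P + r + 1 + 1 := by ring
    omega
  rw [e3]
  nlinarith [Nat.zero_le (r * P)]

/-- The minimal index in the special linear group. -/
theorem sl_index_ge (h3 : 3 ≤ Fintype.card ι) (hexc : ¬ (Fintype.card ι = 4 ∧ Fintype.card F = 2))
    (H : Subgroup (SpecialLinearGroup ι F)) (hH : H ≠ ⊤) :
    (Fintype.card F ^ Fintype.card ι - 1) / (Fintype.card F - 1) ≤ H.index := by
  classical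
  by_contra hd
  push Not at hd
  obtain ⟨ψ, hψ⟩ := (AddChar.exists_apply_ne_zero (a := (1 : F))).2 one_ne_zero
  have hq : 2 ≤ Fintype.card F := Fintype.one_lt_card
  have hN : ∀ K : Subgroup (SpecialLinearGroup ι F), K.index = H.index →
      Fintype.card F * K.index < Fintype.card F + 2 * (Fintype.card F ^ Fintype.card ι - Fintype.card F) := by
    intro K hK
    rw [hK]
    have h1 := points_bound (Fintype.card F) (Fintype.card ι) hq (by omega)
    have h2 : H.index ≤ 2 * Fintype.card F ^ (Fintype.card ι - 1) - 2 := by omega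
    have h3' : Fintype.card F ^ Fintype.card ι = Fintype.card F * Fintype.card F ^ (Fintype.card ι - 1) := by
      rw [← pow_succ']
      congr 1
      omega
    have h4 : Fintype.card F * H.index ≤ Fintype.card F * (2 * Fintype.card F ^ (Fintype.card ι - 1) - 2) :=
      Nat.mul_le_mul_left _ h2
    have h5 : Fintype.card F * (2 * Fintype.card F ^ (Fintype.card ι - 1) - 2) =
        2 * (Fintype.card F ^ Fintype.card ι - Fintype.card F) := by
      rw [h3', Nat.mul_sub, Nat.mul_sub]
      congr 1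
      · ring
      · ring
    omega
  have hFP : ∀ b : ι → F, b ≠ 0 → ¬ ∀ φ : ι → F, φ ⬝ᵥ b = 0 → tv b φ ∈ H := by
    intro b hb hA
    have := points_le_index H hH hb hA
    omega
  by_cases hex : ∃ b θ : ι → F, b ≠ 0 ∧ θ ≠ 0 ∧ θ ⬝ᵥ b = 0 ∧ tv b θ ∈ H
  · obtain ⟨b, θ, hb, hθ, hb0, htv⟩ := hex
    have L := L_of_tv H hψ h3 (hN H rfl) hFP hb hθ hb0 htv
    -- the dual subgroup
    let H' : Subgroup (SpecialLinearGroup ι F) := H.comap (itE : SpecialLinearGroup ι F ≃* SpecialLinearGroup ι F).toMonoidHom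
    have hmem' : ∀ g, g ∈ H' ↔ itM g ∈ H := fun g => Iff.rfl
    have hidx : H'.index = H.index :=
      Subgroup.index_comap_of_surjective _ (itE : SpecialLinearGroup ι F ≃* SpecialLinearGroup ι F).surjective
    have hH' : H' ≠ ⊤ := by
      intro h
      apply hH
      rw [eq_top_iff]
      intro g _
      have : itM g ∈ H' := by rw [h]; trivial
      rw [hmem', itM_itM] at this
      exact this
    have hFP' : ∀ b : ι → F, b ≠ 0 → ¬ ∀ φ : ι → F, φ ⬝ᵥ b = 0 → tv b φ ∈ H' := by
      intro b hb hA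
      have := points_le_index H' hH' hb hA
      omega
    have hb0' : (-b) ⬝ᵥ θ = 0 := by rw [neg_dotProduct, dotProduct_comm, hb0, neg_zero]
    have htv' : tv θ (-b) ∈ H' := by
      rw [hmem', itM_tv hb0', neg_neg]
      exact htv
    have L' := L_of_tv H' hψ h3 (hN H' hidx) hFP' hθ (neg_ne_zero.2 hb) hb0' htv'
    apply hH
    apply eq_top_of_tv
    intro a φ hφa
    by_cases ha : a = 0
    · subst ha
      rw [tv_zero_left]
      exact H.one_mem
    by_cases hφ : φ = 0
    · subst hφ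
      rw [tv_zero_right]
      exact H.one_mem
    obtain ⟨a', ha', hL⟩ := L a ha
    obtain ⟨φ', hφ', hL'⟩ := L' φ hφ
    have hLs : ∀ c : ι → F, φ ⬝ᵥ c = 0 → φ' ⬝ᵥ c = 0 → tv c φ ∈ H := by
      intro c h1 h2
      have h4 : (-c) ⬝ᵥ φ = 0 := by rw [neg_dotProduct, dotProduct_comm, h1, neg_zero]
      have h5 : (-c) ⬝ᵥ φ' = 0 := by rw [neg_dotProduct, dotProduct_comm, h2, neg_zero]
      have := hL' (-c) h4 h5
      rw [hmem', itM_tv h4, neg_neg] at this
      exact this
    by_cases h1 : φ ⬝ᵥ a' = 0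
    · exact hL φ hφa h1
    by_cases h2 : φ' ⬝ᵥ a = 0
    · exact hLs a hφa h2
    obtain ⟨u, hu⟩ := exists_notMem_span_pair h3 φ φ'
    obtain ⟨c, hc1, hc2⟩ := exists_dotProduct_of_notMem hu
    have hcφ : φ ⬝ᵥ c = 0 := by
      rw [dotProduct_comm]
      exact hc1 φ (Submodule.subset_span (by simp))
    have hcφ' : φ' ⬝ᵥ c = 0 := by
      rw [dotProduct_comm]
      exact hc1 φ' (Submodule.subset_span (by simp))
    have hc0 : c ≠ 0 := by
      rintro rfl
      simp at hc2
    have hcs : c ∉ Submodule.span F ({a, a'} : Set (ι → F)) := by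
      intro hm
      obtain ⟨α, β, hab⟩ := Submodule.mem_span_pair.1 hm
      have e1 : β = 0 := by
        have : φ ⬝ᵥ c = β * (φ ⬝ᵥ a') := by
          rw [← hab, dotProduct_add, dotProduct_smul, dotProduct_smul, hφa]
          simp
        rw [hcφ] at this
        exact (mul_eq_zero.1 this.symm).resolve_right h1
      have e2 : α = 0 := by
        have : φ' ⬝ᵥ c = α * (φ' ⬝ᵥ a) := by
          rw [← hab, e1, dotProduct_add, dotProduct_smul, dotProduct_smul]
          simp
        rw [hcφ'] at this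
        exact (mul_eq_zero.1 this.symm).resolve_right h2
      apply hc0
      rw [← hab, e1, e2]
      simp
    obtain ⟨χ, hχ1, hχ2⟩ := exists_dotProduct_of_notMem hcs
    have hχa : χ ⬝ᵥ a = 0 := hχ1 a (Submodule.subset_span (by simp))
    have hχa' : χ ⬝ᵥ a' = 0 := hχ1 a' (Submodule.subset_span (by simp))
    rw [← commutator_tv hχa hcφ hφa hχ2]
    have m1 := hL χ hχa hχa'
    have m2 := hLs c hcφ hcφ'
    exact H.mul_mem (H.mul_mem (H.mul_mem m1 m2) (H.inv_mem m1)) (H.inv_mem m2)
  · push Not at hex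
    have hnt : ∀ x φ : ι → F, x ≠ 0 → φ ≠ 0 → φ ⬝ᵥ x = 0 → tv x φ ∉ H :=
      fun x φ h1 h2 h4 => hex x φ h1 h2 h4
    have hne : Nonempty ι := by
      rw [← Fintype.card_pos_iff]
      omega
    obtain ⟨o⟩ := hne
    have hes : (Pi.single o 1 : ι → F) ≠ 0 := by
      intro h
      have := congrFun h o
      simp at this
    refine no_complement (o := o) (F := F) (H := H) (fun g => transitive_of_no_tv H hψ h3 (hN H rfl) hnt hes g) hnt ?_ ?_
    · rwa [Nat.card_eq_fintype_card]
    · rwa [Nat.card_eq_fintype_card, Nat.card_eq_fintype_card]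

end Cfsg.Agent.Lib.MinIndex
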